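import Mathlib

/-!
# Gauss's formula `4 Φ_l = Y² + l Z²` for a prime `l ≡ 3 (mod 4)`
-/

set_option autoImplicit false

namespace H74.Gauss

open Polynomial

section

variable (l : ℕ) [hl : Fact l.Prime]

local instance instNeZero : NeZero l := ⟨hl.out.ne_zero⟩

variable (K : Type) [Field K] [CharZero K] [Algebra ℚ K] [IsCyclotomicExtension {l} ℚ K]

/-- a primitive root of unity -/
noncomputable def z : K := IsCyclotomicExtension.zeta l ℚ (K)

theorem z_spec : IsPrimitiveRoot (z l K) l := IsCyclotomicExtension.zeta_spec l ℚ (K)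

/-- the additive character -/
noncomputable def ψ : AddChar (ZMod l) (K) := AddChar.zmodChar l (z_spec l K).pow_eq_one

/-- the quadratic character with values in the cyclotomic field -/
noncomputable def χ : MulChar (ZMod l) (K) :=
  (quadraticChar (ZMod l)).ringHomComp (Int.castRingHom (K))

theorem χ_apply (x : ZMod l) : χ l K x = ((quadraticChar (ZMod l) x : ℤ) : K) := rfl

theorem sigma (σ : K ≃ₐ[ℚ] K) :
    ∃ a : (ZMod l)ˣ, ∀ x : ZMod l, σ (ψ l K x) = ψ l K (a * x) := by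
  refine ⟨(z_spec l K).autToPow ℚ σ, fun x => ?_⟩
  set a : ZMod l := ((z_spec l K).autToPow ℚ σ : ZMod l) with ha
  have h1 : z l K ^ a.val = σ (z l K) := (z_spec l K).autToPow_spec ℚ σ
  have h2 : ψ l K x = z l K ^ x.val := rfl
  have h3 : a * x = ((a.val * x.val : ℕ) : ZMod l) := by
    rw [Nat.cast_mul, ZMod.natCast_zmod_val, ZMod.natCast_zmod_val]
  rw [h2, map_pow, ← h1, h3, ψ, AddChar.zmodChar_apply', pow_mul]

/-- the Gauss factors -/
noncomputable def F (ε : ℤ) : (K)[X] :=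
  ∏ x ∈ (Finset.univ : Finset (ZMod l)ˣ).filter (fun x : (ZMod l)ˣ =>
    quadraticChar (ZMod l) (x : ZMod l) = ε),
    (X - C (ψ l K x))

theorem unit_cases (a : (ZMod l)ˣ) :
    quadraticChar (ZMod l) (a : ZMod l) = 1 ∨ quadraticChar (ZMod l) (a : ZMod l) = -1 :=
  quadraticChar_dichotomy (Units.ne_zero a)

theorem map_F {σ : K ≃ₐ[ℚ] K} {a : (ZMod l)ˣ}
    (ha : ∀ x : ZMod l, σ (ψ l K x) = ψ l K (a * x)) (ε : ℤ) :
    (F l K ε).map (σ : K →+* K) =
      F l K (quadraticChar (ZMod l) (a : ZMod l) * ε) := by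
  rw [F, Polynomial.map_prod, F]
  apply Finset.prod_equiv (Equiv.mulLeft a)
  · intro x
    simp only [Finset.mem_filter, Finset.mem_univ, true_and, Equiv.coe_mulLeft, Units.val_mul, map_mul]
    rcases unit_cases l a with h | h <;> rw [h] <;> constructor <;> intro h1 <;> linarith
  · intro x _
    rw [Polynomial.map_sub, Polynomial.map_X, Polynomial.map_C]
    congr 2
    exact ha x

theorem F_mul : F l K 1 * F l K (-1) = cyclotomic l (K) := by
  classical
  have h1 : F l K 1 * F l K (-1) = ∏ x : (ZMod l)ˣ, (X - C (ψ l K x)) := by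
    rw [F, F, ← Finset.prod_union]
    · congr 1
      ext x
      simp only [Finset.mem_union, Finset.mem_filter, Finset.mem_univ, true_and, iff_true]
      exact unit_cases l x
    · rw [Finset.disjoint_filter]
      intro x _ h h'
      rw [h] at h'
      norm_num at h'
  rw [h1, cyclotomic_eq_prod_X_sub_primitiveRoots (z_spec l K)]
  apply Finset.prod_bij (fun (x : (ZMod l)ˣ) _ => ψ l K x)
  · intro x _
    rw [mem_primitiveRoots (NeZero.pos l)]
    have h2 : ψ l K (x : ZMod l) = z l K ^ (x : ZMod l).val := rfl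
    rw [h2]
    exact (z_spec l K).pow_of_coprime _ (ZMod.val_coe_unit_coprime x)
  · intro x _ y _ hxy
    have h2 : z l K ^ (x : ZMod l).val = z l K ^ (y : ZMod l).val := hxy
    have h3 := (z_spec l K).pow_inj (ZMod.val_lt _) (ZMod.val_lt _) h2
    exact Units.ext (ZMod.val_injective l h3)
  · intro w hw
    rw [mem_primitiveRoots (NeZero.pos l)] at hw
    obtain ⟨i, hi, hcop, rfl⟩ := ((z_spec l K).isPrimitiveRoot_iff).1 hw
    refine ⟨ZMod.unitOfCoprime i hcop, Finset.mem_univ _, ?_⟩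
    rw [ZMod.coe_unitOfCoprime, ψ, AddChar.zmodChar_apply']
  · intro x _
    rfl

/-- the Gauss sum -/
noncomputable def G : K := gaussSum (χ l K) (ψ l K)

theorem sigma_G {σ : K ≃ₐ[ℚ] K} {a : (ZMod l)ˣ}
    (ha : ∀ x : ZMod l, σ (ψ l K x) = ψ l K (a * x)) :
    σ (G l K) = ((quadraticChar (ZMod l) (a : ZMod l) : ℤ) : K) * G l K := by
  have h1 : σ (G l K) = gaussSum (χ l K) ((ψ l K).mulShift a) := by
    rw [G, gaussSum, map_sum, gaussSum]
    apply Finset.sum_congr rfl
    intro x _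
    rw [map_mul, ha, AddChar.mulShift_apply, χ_apply, map_intCast]
  have h2 := gaussSum_mulShift (χ l K) (ψ l K) a
  rw [h1]
  rw [G, ← h2, χ_apply, ← mul_assoc, ← Int.cast_mul]
  have h3 : quadraticChar (ZMod l) (a : ZMod l) * quadraticChar (ZMod l) (a : ZMod l) = 1 := by
    rcases unit_cases l a with h | h <;> rw [h] <;> norm_num
  rw [h3, Int.cast_one, one_mul]

theorem G_sq (h3 : l % 4 = 3) : G l K ^ 2 = -(l : K) := by
  have hl2 : ringChar (ZMod l) ≠ 2 := by
    rw [ZMod.ringChar_zmod_n]; rintro rfl; norm_num at h3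
  have h1 : χ l K ≠ 1 := by
    rw [χ, MulChar.ringHomComp_ne_one_iff (Int.cast_injective)]
    exact quadraticChar_ne_one hl2
  have h2 : (χ l K).IsQuadratic := (quadraticChar_isQuadratic (ZMod l)).comp _
  have h4 := gaussSum_sq h1 h2 (AddChar.zmodChar_primitive_of_primitive_root l (z_spec l K))
  rw [G, ψ, h4, χ_apply, ZMod.card]
  have h5 : quadraticChar (ZMod l) (-1) = -1 := by
    rw [quadraticChar_neg_one hl2, ZMod.card]
    rw [ZMod.χ₄_nat_three_mod_four h3]
  rw [h5]; push_cast; ring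

theorem exists_rat {E : Type} [Field E] [Algebra ℚ E] [IsGalois ℚ E] [FiniteDimensional ℚ E] {P : E[X]}
    (hP : ∀ σ : E ≃ₐ[ℚ] E, P.map (σ : E →+* E) = P) :
    ∃ Q : ℚ[X], Q.map (algebraMap ℚ E) = P := by
  rw [← Polynomial.mem_lifts, Polynomial.lifts_iff_coeff_lifts]
  intro n
  rw [IsGalois.mem_range_algebraMap_iff_fixed]
  intro σ
  have := congrArg (fun q => Polynomial.coeff q n) (hP σ)
  simp only [Polynomial.coeff_map] at this
  exact this

include K in
/-- Gauss's formula -/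
theorem gauss_aux (h3 : l % 4 = 3) : ∃ Y Z : ℚ[X], 4 * cyclotomic l ℚ = Y ^ 2 + C (l : ℚ) * Z ^ 2 := by
  have hgal : IsGalois ℚ K := IsCyclotomicExtension.isGalois {l} ℚ K
  have hfin : FiniteDimensional ℚ K := IsCyclotomicExtension.finiteDimensional {l} ℚ K
  obtain ⟨Y, hY⟩ := exists_rat (P := F l K 1 + F l K (-1)) (by
    intro σ
    obtain ⟨a, ha⟩ := sigma l K σ
    rw [Polynomial.map_add, map_F l K ha, map_F l K ha]
    rcases unit_cases l a with h | h <;> rw [h]
    · norm_num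
    · norm_num; rw [add_comm])
  obtain ⟨W, hW⟩ := exists_rat (P := (F l K 1 - F l K (-1)) * C (G l K)) (by
    intro σ
    obtain ⟨a, ha⟩ := sigma l K σ
    rw [Polynomial.map_mul, Polynomial.map_sub, map_F l K ha, map_F l K ha, Polynomial.map_C]
    have h1 := sigma_G l K ha
    have h2 : (σ : K →+* K) (G l K) = σ (G l K) := rfl
    rw [h2, h1]
    rcases unit_cases l a with h | h <;> rw [h]
    · norm_num
    · norm_num; ring)
  have hl0 : (l : ℚ) ≠ 0 := Nat.cast_ne_zero.2 hl.out.ne_zero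
  refine ⟨Y, C ((l : ℚ)⁻¹) * W, ?_⟩
  apply Polynomial.map_injective (algebraMap ℚ (K)) (algebraMap ℚ _).injective
  have h1 : (cyclotomic l ℚ).map (algebraMap ℚ (K)) = F l K 1 * F l K (-1) := by
    rw [F_mul, Polynomial.map_cyclotomic]
  have h2 : (C (G l K)) ^ 2 = -C ((l : K)) := by
    rw [← C_pow, G_sq l K h3, C_neg]
  have hlK : (l : K) ≠ 0 := Nat.cast_ne_zero.2 hl.out.ne_zero
  have h3 : C ((l : K)) * C ((l : K)⁻¹) = 1 := by
    rw [← C_mul, mul_inv_cancel₀ hlK, C_1]
  have e1 : (C (l : ℚ)).map (algebraMap ℚ (K)) = C ((l : K)) := by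
    rw [Polynomial.map_C, map_natCast]
  have e2 : (C ((l : ℚ)⁻¹)).map (algebraMap ℚ (K)) = C ((l : K)⁻¹) := by
    rw [Polynomial.map_C, map_inv₀, map_natCast]
  simp only [Polynomial.map_mul, Polynomial.map_add, Polynomial.map_pow, hY, hW, h1, e1, e2,
    Polynomial.map_ofNat]
  linear_combination (C ((l : K)) * C ((l : K)⁻¹) ^ 2 *
    (F l K 1 - F l K (-1)) ^ 2) * (-h2) +
    ((F l K 1 - F l K (-1)) ^ 2 * (C ((l : K)) * C ((l : K)⁻¹) + 1)) * h3

end

theorem gauss (l : ℕ) [hl : Fact l.Prime] (h3 : l % 4 = 3) :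
    ∃ Y Z : ℚ[X], 4 * cyclotomic l ℚ = Y ^ 2 + C (l : ℚ) * Z ^ 2 := by
  have : NeZero l := ⟨hl.out.ne_zero⟩
  have : NeZero ((l : ℕ) : ℚ) := ⟨Nat.cast_ne_zero.2 hl.out.ne_zero⟩
  exact @gauss_aux l hl (CyclotomicField l ℚ) _ _ (CyclotomicField.algebra l ℚ)
    (CyclotomicField.isCyclotomicExtension l ℚ) h3

end H74.Gauss
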