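import Mathlib
import Cfsg.Agent.Lib.H74.Gauss

/-!
# `-1` is a sum of three squares in `ℚ(√5, ζ_p)`, and quaternions in division rings
-/

set_option autoImplicit false

namespace H74.DivQuat

open Polynomial

theorem not_sq3 : ¬ IsSquare (3 : ZMod 5) := by decide

section arith

variable (l : ℕ) [hl : Fact l.Prime]

/-- `-5` is a square modulo a prime `l ≡ 3 (mod 20)` -/
theorem isSquare_neg_five (h : l % 20 = 3) : IsSquare (-5 : ZMod l) := by
  have hl2 : ringChar (ZMod l) ≠ 2 := by
    rw [ZMod.ringChar_zmod_n]; rintro rfl; norm_num at h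
  have h5 : Fact (Nat.Prime 5) := ⟨by norm_num⟩
  have hl2' : l ≠ 2 := by rintro rfl; norm_num at h
  have hl5 : l ≠ 5 := by rintro rfl; norm_num at h
  have h1 : ¬ IsSquare (5 : ZMod l) := by
    intro hs
    have h2 := (ZMod.exists_sq_eq_prime_iff_of_mod_four_eq_one (p := 5) (q := l) (by norm_num) hl2').2
      (by exact_mod_cast hs)
    have h3 : (l : ZMod 5) = 3 := by
      have : ((l % 5 : ℕ) : ZMod 5) = (l : ZMod 5) := ZMod.natCast_mod l 5
      rw [← this]
      have h4 : l % 5 = 3 := by omega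
      rw [h4]; rfl
    rw [h3] at h2
    exact not_sq3 h2
  have h2 : ¬ IsSquare (-1 : ZMod l) := by
    rw [ZMod.exists_sq_eq_neg_one_iff]
    omega
  have h50 : (5 : ZMod l) ≠ 0 := by
    intro h0
    apply hl5
    have : ((5 : ℕ) : ZMod l) = 0 := by exact_mod_cast h0
    rw [ZMod.natCast_eq_zero_iff] at this
    exact (Nat.prime_dvd_prime_iff_eq hl.out h5.out).1 this
  have h3 : quadraticChar (ZMod l) (-5) = 1 := by
    have e : (-5 : ZMod l) = (-1) * 5 := by ring
    rw [e, map_mul, quadraticChar_neg_one_iff_not_isSquare.2 h1,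
      quadraticChar_neg_one_iff_not_isSquare.2 h2]
    norm_num
  exact (quadraticChar_one_iff_isSquare (neg_ne_zero.2 h50)).1 h3

theorem exists_form (h : l % 20 = 3) : ∃ x y : ℤ, ∃ k : ℤ, 0 < k ∧ k < 6 ∧ x ^ 2 + 5 * y ^ 2 = k * l := by
  obtain ⟨r, hr⟩ := isSquare_neg_five l h
  set k := Nat.sqrt l with hk
  have h1 : l < (k + 1) * (k + 1) := by
    have := Nat.lt_succ_sqrt l
    exact this
  have h2 : k * k ≤ l := Nat.sqrt_le l
  have h2' : k * k ≠ l := by
    intro h3
    have h4 := hl.out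
    rw [← h3] at h4
    rcases Nat.eq_zero_or_pos k with h5 | h5
    · rw [h5] at h4; norm_num at h4
    · have h6 : k ≠ 1 := by rintro h6; rw [h6] at h4; norm_num at h4
      exact (Nat.not_prime_mul h6 h6) h4
  have h3 : Fintype.card (ZMod l) < Fintype.card (Fin (k + 1) × Fin (k + 1)) := by
    rw [ZMod.card, Fintype.card_prod, Fintype.card_fin]; exact h1
  obtain ⟨⟨u, v⟩, ⟨u', v'⟩, hne, heq⟩ := Fintype.exists_ne_map_eq_of_card_lt
    (fun q : Fin (k + 1) × Fin (k + 1) => ((q.1 : ℕ) : ZMod l) - r * ((q.2 : ℕ) : ZMod l)) h3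
  simp only at heq
  set x : ℤ := (u : ℕ) - (u' : ℕ) with hx
  set y : ℤ := (v : ℕ) - (v' : ℕ) with hy
  have hu : (u : ℕ) ≤ k := Nat.lt_succ_iff.1 u.2
  have hu' : (u' : ℕ) ≤ k := Nat.lt_succ_iff.1 u'.2
  have hv : (v : ℕ) ≤ k := Nat.lt_succ_iff.1 v.2
  have hv' : (v' : ℕ) ≤ k := Nat.lt_succ_iff.1 v'.2
  have hdvd : (l : ℤ) ∣ x ^ 2 + 5 * y ^ 2 := by
    rw [← ZMod.intCast_zmod_eq_zero_iff_dvd]
    have e1 : (x : ZMod l) = r * (y : ZMod l) := by
      rw [hx, hy]; push_cast
      linear_combination heq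
    push_cast
    rw [e1]
    linear_combination (-(y : ZMod l) ^ 2) * hr
  obtain ⟨t, ht⟩ := hdvd
  have hlpos : (0 : ℤ) < l := by exact_mod_cast hl.out.pos
  have hxb : x ^ 2 ≤ (k : ℤ) ^ 2 := by
    apply sq_le_sq'
    · rw [hx]; omega
    · rw [hx]; omega
  have hyb : y ^ 2 ≤ (k : ℤ) ^ 2 := by
    apply sq_le_sq'
    · rw [hy]; omega
    · rw [hy]; omega
  have hkl : (k : ℤ) ^ 2 < l := by
    rw [pow_two]; exact_mod_cast lt_of_le_of_ne h2 h2'
  refine ⟨x, y, t, ?_, ?_, by rw [ht, mul_comm]⟩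
  · have hpos : 0 < x ^ 2 + 5 * y ^ 2 := by
      by_contra hcon
      have hx0 : x = 0 := by nlinarith [sq_nonneg x, sq_nonneg y]
      have hy0 : y = 0 := by nlinarith [sq_nonneg x, sq_nonneg y]
      apply hne
      have a1 : (u : ℕ) = u' := by omega
      have a2 : (v : ℕ) = v' := by omega
      rw [Prod.mk.injEq]
      exact ⟨Fin.ext a1, Fin.ext a2⟩
    rw [ht] at hpos
    exact (pos_iff_pos_of_mul_pos hpos).1 hlpos
  · have hlt : (l : ℤ) * t < l * 6 := by rw [← ht]; nlinarith
    exact lt_of_mul_lt_mul_left hlt hlpos.le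

/-- `2 (a² + 5 b²) = l` is solvable in rationals for primes `l ≡ 3 (mod 20)` -/
theorem exists_rat (h : l % 20 = 3) : ∃ a b : ℚ, 2 * (a ^ 2 + 5 * b ^ 2) = l := by
  obtain ⟨x, y, k, hk0, hk6, hxy⟩ := exists_form l h
  have hl4 : (l : ℤ) % 4 = 3 := by omega
  obtain ⟨m, hm⟩ : ∃ m : ℤ, (l : ℤ) = 4 * m + 3 := ⟨(l : ℤ) / 4, by omega⟩
  have hx4 : x % 2 = 0 ∨ x % 2 = 1 := Int.emod_two_eq_zero_or_one x
  have hy4 : y % 2 = 0 ∨ y % 2 = 1 := Int.emod_two_eq_zero_or_one y
  obtain ⟨x', hx'⟩ : ∃ x' : ℤ, x = 2 * x' ∨ x = 2 * x' + 1 := ⟨x / 2, by omega⟩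
  obtain ⟨y', hy'⟩ : ∃ y' : ℤ, y = 2 * y' ∨ y = 2 * y' + 1 := ⟨y / 2, by omega⟩
  have key1 : ∀ (x y : ℤ), x ^ 2 + 5 * y ^ 2 ≠ l := by
    intro x y hxy
    obtain ⟨x', hx'⟩ : ∃ x' : ℤ, x = 2 * x' ∨ x = 2 * x' + 1 := ⟨x / 2, by omega⟩
    obtain ⟨y', hy'⟩ : ∃ y' : ℤ, y = 2 * y' ∨ y = 2 * y' + 1 := ⟨y / 2, by omega⟩
    rw [hm] at hxy
    rcases hx' with rfl | rfl <;> rcases hy' with rfl | rfl <;> ring_nf at hxy <;> omega
  have hk : k = 2 ∨ k = 3 := by
    have hk' : k = 1 ∨ k = 2 ∨ k = 3 ∨ k = 4 ∨ k = 5 := by omega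
    rcases hk' with rfl | rfl | rfl | rfl | rfl
    · exact absurd (by linarith) (key1 x y)
    · left; rfl
    · right; rfl
    · exfalso
      rw [hm] at hxy
      rcases hx' with rfl | rfl <;> rcases hy' with rfl | rfl
      · apply key1 x' y'
        rw [hm]; linarith
      · ring_nf at hxy; omega
      · ring_nf at hxy; omega
      · ring_nf at hxy; omega
    · exfalso
      rw [hm] at hxy
      rcases hx' with rfl | rfl <;> rcases hy' with rfl | rfl <;> ring_nf at hxy <;> omega
  have hxyQ : (x : ℚ) ^ 2 + 5 * (y : ℚ) ^ 2 = k * l := by exact_mod_cast hxy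
  rcases hk with rfl | rfl
  · refine ⟨x / 2, y / 2, ?_⟩
    push_cast at hxyQ
    linear_combination hxyQ / 2
  · refine ⟨(x - 5 * y) / 6, (x + y) / 6, ?_⟩
    push_cast at hxyQ
    linear_combination hxyQ / 3

omit hl in
/-- Dirichlet -/
theorem exists_prime (p : ℕ) (hp : p.Prime) (h7 : 7 ≤ p) : ∃ l : ℕ, l.Prime ∧ l % 20 = 3 ∧ p ∣ l + 1 := by
  have hcop : Nat.Coprime 20 p := by
    rw [Nat.coprime_comm, hp.coprime_iff_not_dvd]
    intro hd
    have h1 : p ∣ 2 ^ 2 * 5 := by norm_num; exact hd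
    rcases (hp.dvd_mul).1 h1 with h2 | h2
    · have := (Nat.prime_dvd_prime_iff_eq hp Nat.prime_two).1 (hp.dvd_of_dvd_pow h2); omega
    · have := (Nat.prime_dvd_prime_iff_eq hp (by norm_num)).1 h2; omega
  obtain ⟨a, ha1, ha2⟩ := Nat.chineseRemainder hcop 3 (p - 1)
  have hap : a.Coprime p := by
    rw [Nat.coprime_comm, hp.coprime_iff_not_dvd]
    intro hd
    have h1 : a ≡ 0 [MOD p] := (Nat.modEq_zero_iff_dvd).2 hd
    have h2 : p - 1 ≡ 0 [MOD p] := ha2.symm.trans h1
    rw [Nat.modEq_zero_iff_dvd] at h2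
    have := Nat.le_of_dvd (by omega) h2
    omega
  have ha20 : a.Coprime 20 := by
    have : a % 20 = 3 := ha1
    rw [Nat.Coprime, Nat.gcd_comm, Nat.gcd_rec, this]
    norm_num
  obtain ⟨l, _, hl, hmod⟩ := Nat.forall_exists_prime_gt_and_modEq 0 (q := 20 * p) (a := a)
    (by have := hp.pos; positivity) (Nat.Coprime.mul_right ha20 hap)
  refine ⟨l, hl, ?_, ?_⟩
  · have h1 : l ≡ 3 [MOD 20] := (hmod.of_mul_right p).trans ha1
    exact h1
  · have h1 : l ≡ p - 1 [MOD p] := (hmod.of_mul_left 20).trans ha2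
    have h2 : l + 1 ≡ (p - 1) + 1 [MOD p] := h1.add_right 1
    rw [Nat.sub_add_cancel (by omega)] at h2
    exact (Nat.modEq_zero_iff_dvd).1 (h2.trans (by rw [Nat.modEq_zero_iff_dvd]))

end arith

section quat

variable {D : Type*} [DivisionRing D] [CharZero D]

/-- no anisotropic vector -/
theorem false_of_sum {i j a b c : D} (hi : i * i = -1) (hj : j * j = -1) (hij : j * i = -(i * j))
    (hai : Commute a i) (haj : Commute a j) (hbi : Commute b i) (hbj : Commute b j)
    (hci : Commute c i) (hcj : Commute c j) (hab : Commute a b) (hac : Commute a c) (hbc : Commute b c)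
    (h : 1 + a * a + b * b + c * c = 0) : False := by
  have hak : Commute a (i * j) := hai.mul_right haj
  have hbk : Commute b (i * j) := hbi.mul_right hbj
  have hck : Commute c (i * j) := hci.mul_right hcj
  have e1 : a * i * (a * i) = a * a * (i * i) := hai.symm.mul_mul_mul_comm a i
  have e2 : a * i * (b * j) = a * b * (i * j) := hbi.symm.mul_mul_mul_comm a j
  have e3 : a * i * (c * (i * j)) = a * c * (i * (i * j)) := hci.symm.mul_mul_mul_comm a (i * j)
  have e4 : b * j * (a * i) = b * a * (j * i) := haj.symm.mul_mul_mul_comm b i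
  have e5 : b * j * (b * j) = b * b * (j * j) := hbj.symm.mul_mul_mul_comm b j
  have e6 : b * j * (c * (i * j)) = b * c * (j * (i * j)) := hcj.symm.mul_mul_mul_comm b (i * j)
  have e7 : c * (i * j) * (a * i) = c * a * (i * j * i) := hak.symm.mul_mul_mul_comm c i
  have e8 : c * (i * j) * (b * j) = c * b * (i * j * j) := hbk.symm.mul_mul_mul_comm c j
  have e9 : c * (i * j) * (c * (i * j)) = c * c * (i * j * (i * j)) := hck.symm.mul_mul_mul_comm c (i * j)
  have f1 : i * (i * j) = -j := by rw [← mul_assoc, hi]; simp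
  have f2 : j * (i * j) = i := by
    rw [← mul_assoc, hij, neg_mul, mul_assoc, hj]; simp
  have f3 : i * j * i = j := by rw [mul_assoc, hij, mul_neg, f1, neg_neg]
  have f4 : i * j * j = -i := by rw [mul_assoc, hj]; simp
  have f5 : i * j * (i * j) = -1 := by rw [mul_assoc, f2, hi]
  set v := a * i + b * j + c * (i * j) with hv
  have hvv : v * v = -(a * a + b * b + c * c) := by
    rw [hv]
    simp only [add_mul, mul_add, e1, e2, e3, e4, e5, e6, e7, e8, e9]
    rw [hi, hj, hij, f1, f2, f3, f4, f5, hab.eq, hac.eq, hbc.eq]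
    simp only [mul_neg, mul_one]
    abel
  have hprod : (1 + v) * (1 - v) = 0 := by
    have : (1 + v) * (1 - v) = 1 - v * v := by noncomm_ring
    rw [this, hvv, sub_neg_eq_add, ← h]
    abel
  have key : ∀ e : D, e ≠ 0 → Commute e i → Commute e j → v ≠ e := by
    intro e he hei hej hve
    -- conjugate by `i`
    have g1 : i * v = v * i := by rw [hve]; exact hei.eq.symm
    have g2 : j * v = v * j := by rw [hve]; exact hej.eq.symm
    have hi0 : i ≠ 0 := by rintro rfl; rw [mul_zero] at hi; exact absurd hi.symm (by norm_num)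
    have hj0 : j ≠ 0 := by rintro rfl; rw [mul_zero] at hj; exact absurd hj.symm (by norm_num)
    have k1 : i * v = a * (i * i) + b * (i * j) + c * (i * (i * j)) := by
      rw [hv, mul_add, mul_add, ← mul_assoc, ← mul_assoc, ← mul_assoc i c, ← hai.eq, ← hbi.eq, ← hci.eq]
      simp only [mul_assoc]
    have k2 : v * i = a * (i * i) + b * (j * i) + c * (i * j * i) := by
      rw [hv]; noncomm_ring
    have k3 : j * v = a * (j * i) + b * (j * j) + c * (j * (i * j)) := by
      rw [hv, mul_add, mul_add, ← mul_assoc, ← mul_assoc, ← mul_assoc j c, ← haj.eq, ← hbj.eq, ← hcj.eq]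
      simp only [mul_assoc]
    have k4 : v * j = a * (i * j) + b * (j * j) + c * (i * j * j) := by
      rw [hv]; noncomm_ring
    rw [k1, k2, hij, f1, f3] at g1
    rw [k3, k4, hij, f2, f4] at g2
    -- g1 : b ij - c j = -b ij + c j
    have g3 : b * (i * j) - c * j = 0 := by
      have : (2 : D) * (b * (i * j) - c * j) = 0 := by
        have h1 : a * (i * i) + b * (i * j) + c * -j - (a * (i * i) + b * -(i * j) + c * j) = 0 := by
          rw [g1, sub_self]
        rw [← h1]; noncomm_ring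
      exact (mul_eq_zero.1 this).resolve_left two_ne_zero
    have g4 : -(a * (i * j)) + c * i = 0 := by
      have : (2 : D) * (-(a * (i * j)) + c * i) = 0 := by
        have h1 : a * -(i * j) + b * (j * j) + c * i - (a * (i * j) + b * (j * j) + c * -i) = 0 := by
          rw [g2, sub_self]
        rw [← h1]; noncomm_ring
      exact (mul_eq_zero.1 this).resolve_left two_ne_zero
    have g5 : b * i = c := by
      have : (b * i - c) * j = 0 := by rw [← g3]; noncomm_ring
      exact sub_eq_zero.1 ((mul_eq_zero.1 this).resolve_right hj0)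
    -- b * i commutes with j, so b = 0
    have g6 : b = 0 := by
      have h1 : c * j = j * c := hcj.eq
      rw [← g5] at h1
      have h2 : b * i * j = -(b * i * j) := by
        calc b * i * j = j * (b * i) := h1
          _ = b * (j * i) := by rw [← mul_assoc, ← hbj.eq, mul_assoc]
          _ = _ := by rw [hij]; noncomm_ring
      have h3 : (2 : D) * (b * i * j) = 0 := by
        have : (2 : D) * (b * i * j) = b * i * j - (-(b * i * j)) := by noncomm_ring
        rw [this, ← h2, sub_self]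
      have h4 := (mul_eq_zero.1 h3).resolve_left two_ne_zero
      have h5 := (mul_eq_zero.1 h4).resolve_right hj0
      exact (mul_eq_zero.1 h5).resolve_right hi0
    have g7 : c = 0 := by rw [← g5, g6, zero_mul]
    have g8 : a = 0 := by
      rw [g7, zero_mul, add_zero, neg_eq_zero] at g4
      exact (mul_eq_zero.1 g4).resolve_right (mul_ne_zero hi0 hj0)
    apply he
    rw [← hve, hv, g6, g7, g8]; simp
  rcases mul_eq_zero.1 hprod with h1 | h1
  · exact key (-1) (by norm_num) (Commute.one_left i).neg_left (Commute.one_left j).neg_left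
      (by rw [eq_neg_iff_add_eq_zero, add_comm]; exact h1)
  · exact key 1 one_ne_zero (Commute.one_left i) (Commute.one_left j) (sub_eq_zero.1 h1).symm

theorem false_of_sum' {i j e a b c : D} (hi : i * i = -1) (hj : j * j = -1) (hij : j * i = -(i * j))
    (he0 : e ≠ 0) (hei : Commute e i) (hej : Commute e j) (hea : Commute e a) (heb : Commute e b)
    (hec : Commute e c)
    (hai : Commute a i) (haj : Commute a j) (hbi : Commute b i) (hbj : Commute b j)
    (hci : Commute c i) (hcj : Commute c j) (hab : Commute a b) (hac : Commute a c) (hbc : Commute b c)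
    (h : e * e + a * a + b * b + c * c = 0) : False := by
  have hxe : ∀ x : D, Commute e x → Commute e⁻¹ x := fun x hx => hx.inv_left₀
  have hsq : ∀ x : D, Commute e x → (x * e⁻¹) * (x * e⁻¹) = x * x * (e⁻¹ * e⁻¹) := fun x hx =>
    (hxe x hx).mul_mul_mul_comm x e⁻¹
  refine false_of_sum (a := a * e⁻¹) (b := b * e⁻¹) (c := c * e⁻¹) hi hj hij
    (hai.mul_left (hxe i hei)) (haj.mul_left (hxe j hej)) (hbi.mul_left (hxe i hei))
    (hbj.mul_left (hxe j hej)) (hci.mul_left (hxe i hei)) (hcj.mul_left (hxe j hej)) ?_ ?_ ?_ ?_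
  · exact (hab.mul_left (hxe b heb)).mul_right ((hxe a hea).symm.mul_left (Commute.refl _))
  · exact (hac.mul_left (hxe c hec)).mul_right ((hxe a hea).symm.mul_left (Commute.refl _))
  · exact (hbc.mul_left (hxe c hec)).mul_right ((hxe b heb).symm.mul_left (Commute.refl _))
  · rw [hsq a hea, hsq b heb, hsq c hec]
    have h1 : (1 : D) = e * e * (e⁻¹ * e⁻¹) := by
      rw [mul_assoc, ← mul_assoc e e⁻¹ e⁻¹, mul_inv_cancel₀ he0, one_mul, mul_inv_cancel₀ he0]
    have h2 : 1 + a * a * (e⁻¹ * e⁻¹) + b * b * (e⁻¹ * e⁻¹) + c * c * (e⁻¹ * e⁻¹) =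
        (e * e + a * a + b * b + c * c) * (e⁻¹ * e⁻¹) := by
      rw [add_mul, add_mul, add_mul, ← h1]
    rw [h2, h, zero_mul]

theorem commute_aeval {x m : D} (h : Commute x m) (P : ℚ[X]) : Commute x (aeval m P) := by
  have h1 : aeval m P ∈ Algebra.adjoin ℚ ({m} : Set D) := aeval_mem_adjoin_singleton ℚ m
  have h2 : Algebra.adjoin ℚ ({m} : Set D) ≤ Subalgebra.centralizer ℚ ({x} : Set D) := by
    rw [Algebra.adjoin_le_iff]
    rintro y rfl
    rw [SetLike.mem_coe, Subalgebra.mem_centralizer_iff]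
    rintro z rfl
    exact h.eq
  exact (Subalgebra.mem_centralizer_iff ℚ).1 (h2 h1) x rfl

/-- a quaternion group and `√5` do not commute with an element of prime order `≥ 7` in a division
ring of characteristic zero -/
theorem no_prime {i j s m : D} (hi : i * i = -1) (hj : j * j = -1) (hij : j * i = -(i * j))
    (hs : s * s = 5) (hsi : Commute s i) (hsj : Commute s j) (hsm : Commute s m) (hmi : Commute m i)
    (hmj : Commute m j) {p : ℕ} (hp : p.Prime) (h7 : 7 ≤ p) (hm : m ^ p = 1) (hm1 : m ≠ 1) : False := by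
  obtain ⟨l, hl, hl20, hpl⟩ := exists_prime p hp h7
  have : Fact l.Prime := ⟨hl⟩
  obtain ⟨Y, Z, hYZ⟩ := H74.Gauss.gauss l (by omega)
  obtain ⟨a, b, hab⟩ := exists_rat l hl20
  have hm0 : m ≠ 0 := by
    rintro rfl
    rw [zero_pow hp.ne_zero] at hm
    exact zero_ne_one hm
  set y := aeval m Y with hy
  set z := aeval m Z with hz
  set φ := aeval m (cyclotomic l ℚ) with hφ
  have h1 : 4 * φ = y ^ 2 + (l : D) * z ^ 2 := by
    have := congrArg (aeval m) hYZ
    rw [map_mul, map_add, map_mul, map_pow, map_pow, aeval_C, map_ofNat, map_natCast] at this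
    exact this
  have h2 : φ * (m - 1) = m ^ l - 1 := by
    have := congrArg (aeval m) (cyclotomic_prime_mul_X_sub_one ℚ l)
    simpa using this
  have hml : m ^ (l + 1) = 1 := by
    obtain ⟨k, hk⟩ := hpl
    rw [hk, pow_mul, hm, one_pow]
  have hml' : m ^ l = m⁻¹ := by
    rw [pow_succ] at hml
    exact eq_inv_of_mul_eq_one_left hml
  have h3 : φ = -m⁻¹ := by
    have h4 : (φ + m⁻¹) * (m - 1) = 0 := by
      rw [add_mul, h2, hml', mul_sub, inv_mul_cancel₀ hm0]; noncomm_ring
    exact eq_neg_of_add_eq_zero_left ((mul_eq_zero.1 h4).resolve_right (sub_ne_zero.2 hm1))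
  set n := m ^ ((p - 1) / 2) with hn
  have hodd : p % 2 = 1 := by
    rcases hp.eq_two_or_odd with h | h
    · omega
    · exact h
  have hnn : n * n = m⁻¹ := by
    rw [hn, ← pow_add]
    have e : (p - 1) / 2 + (p - 1) / 2 = p - 1 := by omega
    rw [e]
    apply eq_inv_of_mul_eq_one_left
    rw [← pow_succ, Nat.sub_add_cancel (by omega)]
    exact hm
  have hn0 : n ≠ 0 := pow_ne_zero _ hm0
  have hcm : ∀ x : D, Commute x m → Commute x n := fun x hx => hx.pow_right _
  have hcy : ∀ x : D, Commute x m → Commute x y := fun x hx => commute_aeval hx Y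
  have hcz : ∀ x : D, Commute x m → Commute x z := fun x hx => commute_aeval hx Z
  have hmm := Commute.refl m
  have hrat : ∀ (q : ℚ) (x : D), Commute (q : D) x := fun q x => (Rat.cast_commute q x)
  have hbs : ∀ x : D, Commute s x → Commute ((b : D) * s) x := fun x hx => (hrat b x).mul_left hx
  have hc1 : ∀ x : D, Commute s x → Commute ((a : D) + b * s) x := fun x hx =>
    (hrat a x).add_left (hbs x hx)
  have hd1 : ∀ x : D, Commute s x → Commute ((a : D) - b * s) x := fun x hx =>
    (hrat a x).sub_left (hbs x hx)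
  have hss := Commute.refl s
  have hcd : Commute ((a : D) + b * s) ((a : D) - b * s) :=
    hc1 _ (hd1 s hss).symm
  have hsz : Commute s z := hcz s hsm
  have hsy : Commute s y := hcy s hsm
  have hzz : Commute z z := Commute.refl z
  have hcc : ((a : D) + b * s) * ((a : D) + b * s) + ((a : D) - b * s) * ((a : D) - b * s) = l := by
    have e1 : ((a : D) + b * s) * ((a : D) + b * s) + ((a : D) - b * s) * ((a : D) - b * s) =
        2 * (a * a) + 2 * ((b * s) * (b * s)) := by noncomm_ring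
    have e2 : ((b : D) * s) * (b * s) = b * b * 5 := by
      rw [(hrat b s).symm.mul_mul_mul_comm, hs]
    have e3 : ((2 * (a ^ 2 + 5 * b ^ 2) : ℚ) : D) = ((l : ℚ) : D) := by rw [hab]
    rw [e1, e2]
    push_cast at e3
    rw [← e3]
    have e4 : ((b : D)) * b * 5 = 5 * (b * b) := ((Nat.cast_commute 5 ((b : D) * b)).eq.symm)
    rw [e4]; noncomm_ring
  have hmz : Commute m z := hcz m hmm
  have hmy : Commute m y := hcy m hmm
  have hzy : Commute z y := (commute_aeval hmz.symm Y)
  have h2n : ∀ x : D, Commute x m → Commute (2 * n) x := fun x hx =>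
    ((Nat.cast_commute 2 x).mul_left (hcm x hx).symm)
  refine false_of_sum' (i := i) (j := j) (e := 2 * n) (a := y) (b := ((a : D) + b * s) * z)
    (c := ((a : D) - b * s) * z) hi hj hij (mul_ne_zero two_ne_zero hn0) (h2n i hmi.symm)
    (h2n j hmj.symm) (h2n y hmy.symm) ?_ ?_ (hcy i hmi.symm).symm (hcy j hmj.symm).symm ?_ ?_ ?_ ?_ ?_ ?_ ?_ ?_
  · exact h2n _ ((hc1 m hsm).mul_left hmz.symm)
  · exact h2n _ ((hd1 m hsm).mul_left hmz.symm)
  · exact (hc1 i hsi).mul_left (hcz i hmi.symm).symm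
  · exact (hc1 j hsj).mul_left (hcz j hmj.symm).symm
  · exact (hd1 i hsi).mul_left (hcz i hmi.symm).symm
  · exact (hd1 j hsj).mul_left (hcz j hmj.symm).symm
  · exact ((hc1 y hsy).mul_left hzy).symm
  · exact ((hd1 y hsy).mul_left hzy).symm
  · exact (hcd.mul_left (hd1 z hsz).symm).mul_right ((hc1 z hsz).mul_left hzz)
  · have e1 : ((a : D) + b * s) * z * (((a : D) + b * s) * z) =
        ((a : D) + b * s) * ((a : D) + b * s) * (z * z) :=
      (hc1 z hsz).symm.mul_mul_mul_comm _ _
    have e2 : ((a : D) - b * s) * z * (((a : D) - b * s) * z) =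
        ((a : D) - b * s) * ((a : D) - b * s) * (z * z) :=
      (hd1 z hsz).symm.mul_mul_mul_comm _ _
    rw [e1, e2, add_assoc, ← add_mul, hcc, add_assoc, ← pow_two, ← pow_two, ← pow_two, ← h1, h3]
    have e3 : (2 * n) ^ 2 = 4 * (n * n) := by
      rw [pow_two]
      have : 2 * n * (2 * n) = (2 * 2) * (n * n) := ((Nat.cast_commute 2 n).symm).mul_mul_mul_comm 2 n
      rw [this]; norm_num
    rw [e3, hnn]; noncomm_ring

end quat

end H74.DivQuat
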