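import Mathlib
import Cfsg.Agent.Lib.H74.FrobC

/-!
# Finite subgroups of division rings
-/

set_option autoImplicit false

namespace H74.DivRing

open Matrix

variable {D : Type*} [DivisionRing D]

/-- in positive characteristic a finite subgroup of a division ring is commutative -/
theorem comm_of_charP (p : ℕ) [hp : Fact p.Prime] [CharP D p] (H : Subgroup Dˣ) [Finite H] (x y : H) :
    x * y = y * x := by
  classical
  let _ : Algebra (ZMod p) D := ZMod.algebra D p
  let S : Submonoid D := H.toSubmonoid.map (Units.coeHom D)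
  have hSf : Finite S := by
    have : Function.Surjective (fun h : H => (⟨(h : Dˣ), (h : Dˣ), h.2, rfl⟩ : S)) := by
      rintro ⟨_, h, hh, rfl⟩
      exact ⟨⟨h, hh⟩, rfl⟩
    exact Finite.of_surjective _ this
  let A := Algebra.adjoin (ZMod p) (S : Set D)
  have hA : Finite A := by
    have h1 : Subalgebra.toSubmodule A = Submodule.span (ZMod p) (S : Set D) := by
      rw [Algebra.adjoin_eq_span, Submonoid.closure_eq]
    have h2 : Module.Finite (ZMod p) (Submodule.span (ZMod p) (S : Set D)) :=
      Module.Finite.span_of_finite (ZMod p) (Set.toFinite _)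
    rw [← h1] at h2
    have h3 : Finite (Subalgebra.toSubmodule A) := Module.finite_of_finite (ZMod p)
    exact h3
  have hfield := Finite.isDomain_to_isField A
  apply Subtype.ext
  apply Units.ext
  have hx : ((x : Dˣ) : D) ∈ A := Algebra.subset_adjoin ⟨x, x.2, rfl⟩
  have hy : ((y : Dˣ) : D) ∈ A := Algebra.subset_adjoin ⟨y, y.2, rfl⟩
  exact congrArg Subtype.val (hfield.mul_comm ⟨_, hx⟩ ⟨_, hy⟩)

/-- in characteristic zero a nontrivial finite subgroup of a division ring is a Frobenius
complement -/
theorem isFC [CharZero D] (H : Subgroup Dˣ) [Finite H] [Nontrivial H] : H74.FrobC.IsFC H := by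
  classical
  let S : Submonoid D := H.toSubmonoid.map (Units.coeHom D)
  have hSf : Finite S := by
    have : Function.Surjective (fun h : H => (⟨(h : Dˣ), (h : Dˣ), h.2, rfl⟩ : S)) := by
      rintro ⟨_, h, hh, rfl⟩
      exact ⟨⟨h, hh⟩, rfl⟩
    exact Finite.of_surjective _ this
  let A := Algebra.adjoin ℤ (S : Set D)
  have hAfin : Module.Finite ℤ A := by
    have h1 : Subalgebra.toSubmodule A = Submodule.span ℤ (S : Set D) := by
      rw [Algebra.adjoin_eq_span, Submonoid.closure_eq]
    have h2 : Module.Finite ℤ (Submodule.span ℤ (S : Set D)) :=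
      Module.Finite.span_of_finite ℤ (Set.toFinite _)
    rw [← h1] at h2
    exact h2
  have hfree : Module.Free ℤ A := Module.free_of_finite_type_torsion_free'
  let b := Module.finBasis ℤ A
  have hmem : ∀ h : H, ((h : Dˣ) : D) ∈ A := fun h => Algebra.subset_adjoin ⟨h, h.2, rfl⟩
  let i : H →* A :=
    { toFun := fun h => ⟨((h : Dˣ) : D), hmem h⟩
      map_one' := rfl
      map_mul' := fun _ _ => rfl }
  let ρ : H →* Matrix (Fin (Module.finrank ℤ A)) (Fin (Module.finrank ℤ A)) ℤ :=
    (((LinearMap.toMatrixAlgEquiv b).toAlgHom.comp (Algebra.lmul ℤ A)).toRingHom.toMonoidHom).comp i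
  refine H74.FrobC.FC_of_int (m := Module.finrank ℤ A) ?_ ρ ?_
  · exact Module.finrank_pos
  · intro g hg
    have h1 : ∑ k ∈ Finset.range (orderOf g), i g ^ k = 0 := by
      have h2 : (i g - 1) * ∑ k ∈ Finset.range (orderOf g), i g ^ k = 0 := by
        rw [mul_geom_sum, ← map_pow, pow_orderOf_eq_one, map_one, sub_self]
      rcases mul_eq_zero.1 h2 with h3 | h3
      · exfalso
        apply hg
        have h4 : i g = 1 := sub_eq_zero.1 h3
        apply Subtype.ext
        apply Units.ext
        exact congrArg Subtype.val h4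
      · exact h3
    have h2 := congrArg (LinearMap.toMatrixAlgEquiv b) (congrArg (Algebra.lmul ℤ A) h1)
    rw [map_zero, map_zero, map_sum, map_sum] at h2
    rw [← h2]
    apply Finset.sum_congr rfl
    intro k _
    rw [map_pow, map_pow]
    rfl

end H74.DivRing
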