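import Mathlib
import Cfsg.Agent.Lib.H74.DivRing
import Cfsg.Agent.Lib.H74.DivQuat
import Cfsg.Agent.Lib.H74.NonSolv3

/-!
# Nonsolvable finite subgroups of division rings
-/

set_option autoImplicit false

namespace H74.DivRing2

open Equiv

variable {D : Type*} [DivisionRing D] [CharZero D] {G : Type*} [Group G] (ι : G →* D)

section basic

variable (hι : Function.Injective ι)

include hι

omit [CharZero D] in
theorem neg_one_of {x : G} (h4 : x ^ 4 = 1) (h2 : x ^ 2 ≠ 1) : ι x * ι x = -1 := by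
  have h1 : (ι x * ι x) * (ι x * ι x) = 1 := by
    rw [← map_mul, ← map_mul]
    have : x * x * (x * x) = x ^ 4 := by simp only [pow_succ, pow_zero, one_mul, mul_assoc]
    rw [this, h4, map_one]
  rcases mul_self_eq_one_iff.1 h1 with h | h
  · exfalso
    apply h2
    apply hι
    rw [pow_two, map_mul, h, map_one]
  · exact h

omit [CharZero D] in
theorem three_of {x : G} (h3 : x ^ 3 = 1) (h1 : x ≠ 1) : ι x * ι x + ι x + 1 = 0 := by
  have e : (ι x * ι x + ι x + 1) * (ι x - 1) = 0 := by
    have h2 : ι x * ι x * ι x = 1 := by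
      rw [← map_mul, ← map_mul]
      have : x * x * x = x ^ 3 := by simp only [pow_succ, pow_zero, one_mul, mul_assoc]
      rw [this, h3, map_one]
    calc (ι x * ι x + ι x + 1) * (ι x - 1) = ι x * ι x * ι x - 1 := by noncomm_ring
      _ = 0 := by rw [h2, sub_self]
  refine (mul_eq_zero.1 e).resolve_right ?_
  intro h
  apply h1
  apply hι
  rw [map_one]; exact sub_eq_zero.1 h

omit [CharZero D] hι in
theorem inv_eq (x : G) : ι x * ι x⁻¹ = 1 := by rw [← map_mul, mul_inv_cancel, map_one]

omit [CharZero D] hι in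
/-- `u = y + y⁻¹` for an element `y` of order five -/
theorem five_aux {y y' : D} (hyy : y * y' = 1) (hy'y : y' * y = 1) (h5 : y * y * y * y * y = 1) (h1 : y ≠ 1) :
    (y + y') * (y + y') + (y + y') - 1 = 0 := by
  have e : (y * y * y * y + y * y * y + y * y + y + 1) * (y - 1) = 0 := by
    calc (y * y * y * y + y * y * y + y * y + y + 1) * (y - 1) = y * y * y * y * y - 1 := by noncomm_ring
      _ = 0 := by rw [h5, sub_self]
  have e1 := (mul_eq_zero.1 e).resolve_right (sub_ne_zero.2 h1)
  have e2 : (y + y') * (y + y') + (y + y') - 1 = y * y + y * y' + y' * y + y' * y' + y + y' - 1 := by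
    noncomm_ring
  rw [e2, hyy, hy'y]
  have e3 : (y * y * y * y + y * y * y + y * y + y + 1) * (y' * y') = y * y + y + 1 + y' + y' * y' := by
    have hA : ∀ a : D, a * y * y' = a := fun a => by rw [mul_assoc, hyy, mul_one]
    have g1 : y * y * y * y * (y' * y') = y * y := by rw [← mul_assoc, hA, hA]
    have g2 : y * y * y * (y' * y') = y := by rw [← mul_assoc, hA, hA]
    have g3 : y * y * (y' * y') = 1 := by rw [← mul_assoc, hA, hyy]
    have g4 : y * (y' * y') = y' := by rw [← mul_assoc, hyy, one_mul]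
    rw [add_mul, add_mul, add_mul, add_mul, g1, g2, g3, g4, one_mul]
  rw [e1, zero_mul] at e3
  calc y * y + 1 + 1 + y' * y' + y + y' - 1 = y * y + y + 1 + y' + y' * y' := by abel
    _ = 0 := e3.symm

omit [CharZero D] hι in
/-- the commutation trick: `u = tj + jt` commutes with `i` and `j` -/
theorem comm_trick {i j t : D} (hj : j * j = -1) (ht : t * t = -1) (hij : j * i = -(i * j))
    (hti : t * i + i * t = -1) :
    Commute (t * j + j * t) i ∧ Commute (t * j + j * t) j ∧ Commute (t * j + j * t) t := by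
  refine ⟨?_, ?_, ?_⟩
  · have h1 : t * i = -1 - i * t := by rw [← hti]; abel
    change (t * j + j * t) * i = i * (t * j + j * t)
    calc (t * j + j * t) * i = t * (j * i) + j * (t * i) := by noncomm_ring
      _ = t * (-(i * j)) + j * (t * i) := by rw [hij]
      _ = -((t * i) * j) + j * (t * i) := by noncomm_ring
      _ = -((-1 - i * t) * j) + j * (-1 - i * t) := by rw [h1]
      _ = i * t * j - (j * i) * t := by noncomm_ring
      _ = i * t * j - (-(i * j)) * t := by rw [hij]
      _ = _ := by noncomm_ring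
  · change (t * j + j * t) * j = j * (t * j + j * t)
    calc (t * j + j * t) * j = t * (j * j) + j * t * j := by noncomm_ring
      _ = j * t * j + (j * j) * t := by rw [hj]; noncomm_ring
      _ = _ := by noncomm_ring
  · change (t * j + j * t) * t = t * (t * j + j * t)
    calc (t * j + j * t) * t = t * j * t + j * (t * t) := by noncomm_ring
      _ = (t * t) * j + t * j * t := by rw [ht]; noncomm_ring
      _ = _ := by noncomm_ring

omit [CharZero D] hι in
theorem anti_of {i j : D} (hi : i * i = -1) (hj : j * j = -1) (hij : (i * j) * (i * j) = -1) :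
    j * i = -(i * j) := by
  have h1 : i * ((i * j) * (i * j)) * j = j * i := by
    calc i * ((i * j) * (i * j)) * j = (i * i) * (j * i) * (j * j) := by noncomm_ring
      _ = j * i := by rw [hi, hj]; noncomm_ring
  rw [hij] at h1
  rw [← h1]; noncomm_ring

omit [CharZero D] hι in
theorem u_sq {u : D} (h : u * u + u - 1 = 0) : (2 * u + 1) * (2 * u + 1) = 5 := by
  have h4 : (4 : D) = 1 + 1 + 1 + 1 := by norm_num
  have h5 : (5 : D) = 1 + 1 + 1 + 1 + 1 := by norm_num
  have h2 : (2 : D) = 1 + 1 := by norm_num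
  calc (2 * u + 1) * (2 * u + 1) = 4 * (u * u + u - 1) + 5 := by rw [h4, h5, h2]; noncomm_ring
    _ = 5 := by rw [h]; norm_num

end basic

open H74.Zass H74.NonSolv

omit [CharZero D] in
theorem eq_neg_half (ι : G →* D) (hι : Function.Injective ι) {t i : G} (ht : ι t * ι t = -1)
    (hi : ι i * ι i = -1) (h3 : (t * i) ^ 3 = 1) (h1 : t * i ≠ 1) :
    ι t * ι i + ι i * ι t = -1 := by
  have h2 := three_of ι hι h3 h1
  rw [map_mul] at h2
  -- x² + x + 1 = 0, multiply by x⁻¹ = i t
  have h4 : (ι t * ι i) * (ι i * ι t) = 1 := by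
    calc (ι t * ι i) * (ι i * ι t) = ι t * (ι i * ι i) * ι t := by noncomm_ring
      _ = -(ι t * ι t) := by rw [hi]; noncomm_ring
      _ = 1 := by rw [ht, neg_neg]
  have h5 : (ι t * ι i * (ι t * ι i) + ι t * ι i + 1) * (ι i * ι t) = ι t * ι i + 1 + ι i * ι t := by
    rw [add_mul, add_mul, mul_assoc (ι t * ι i), h4, one_mul, mul_one]
  rw [h2, zero_mul] at h5
  have h6 : ι t * ι i + ι i * ι t + 1 = 0 := by rw [h5]; abel
  exact eq_neg_of_add_eq_zero_left h6

/-- a subgroup `SL(2,5)` does not centralize an element of prime order `≥ 7` -/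
theorem no_cent (hι : Function.Injective ι) (L : Subgroup G) (e : L ≃* SL5) {m : G}
    (hm : m ∈ Subgroup.centralizer (L : Set G)) {p : ℕ} (hp : p.Prime) (h7 : 7 ≤ p) (hmp : m ^ p = 1)
    (hm1 : m ≠ 1) : False := by
  let φ : SL5 → G := fun x => (e.symm x : L)
  have hφ : ∀ x y : SL5, φ (x * y) = φ x * φ y := fun x y => by
    simp only [φ, map_mul, Subgroup.coe_mul]
  have hφ1 : φ 1 = 1 := by simp only [φ, map_one, Subgroup.coe_one]
  have hφp : ∀ (x : SL5) (n : ℕ), φ (x ^ n) = φ x ^ n := fun x n => by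
    simp only [φ, map_pow, Subgroup.coe_pow]
  have hφi : ∀ x : SL5, φ x = 1 → x = 1 := by
    intro x hx
    have h1 : e.symm x = 1 := Subtype.ext hx
    rwa [MulEquiv.map_eq_one_iff] at h1
  have hcomm : ∀ x : SL5, Commute (ι m) (ι (φ x)) := by
    intro x
    have h1 := Subgroup.mem_centralizer_iff.1 hm (φ x) (e.symm x).2
    change ι m * ι (φ x) = ι (φ x) * ι m
    rw [← map_mul, ← map_mul, h1]
  let I : SL5 := mk 2 0 0 3 (by decide)
  let J : SL5 := mk 0 1 4 0 (by decide)
  let T : SL5 := mk 1 1 3 4 (by decide)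
  have four : ∀ X : SL5, X ^ 4 = 1 → X ^ 2 ≠ 1 → ι (φ X) * ι (φ X) = -1 := by
    intro X h4 h2
    apply neg_one_of ι hι
    · rw [← hφp, h4, hφ1]
    · rw [← hφp]; exact fun h => h2 (hφi _ h)
  have hI := four I (by decide) (by decide)
  have hJ := four J (by decide) (by decide)
  have hT := four T (by decide) (by decide)
  have hIJ := four (I * J) (by decide) (by decide)
  rw [hφ, map_mul] at hIJ
  have hanti := anti_of hI hJ hIJ
  have hTI : ι (φ T) * ι (φ I) + ι (φ I) * ι (φ T) = -1 := by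
    apply eq_neg_half ι hι hT hI
    · rw [← hφ, ← hφp]
      have : (T * I) ^ 3 = 1 := by decide
      rw [this, hφ1]
    · rw [← hφ]
      intro h
      exact absurd (hφi _ h) (by decide)
  obtain ⟨c1, c2, c3⟩ := comm_trick hJ hT hanti hTI
  have h5 : (ι (φ T) * ι (φ J) + ι (φ J) * ι (φ T)) * (ι (φ T) * ι (φ J) + ι (φ J) * ι (φ T)) +
      (ι (φ T) * ι (φ J) + ι (φ J) * ι (φ T)) - 1 = 0 := by
    have k1 : (ι (φ T) * ι (φ J)) * (ι (φ J) * ι (φ T)) = 1 := by
      calc (ι (φ T) * ι (φ J)) * (ι (φ J) * ι (φ T)) = ι (φ T) * (ι (φ J) * ι (φ J)) * ι (φ T) := by noncomm_ring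
        _ = -(ι (φ T) * ι (φ T)) := by rw [hJ]; noncomm_ring
        _ = 1 := by rw [hT, neg_neg]
    have k2 : (ι (φ J) * ι (φ T)) * (ι (φ T) * ι (φ J)) = 1 := by
      calc (ι (φ J) * ι (φ T)) * (ι (φ T) * ι (φ J)) = ι (φ J) * (ι (φ T) * ι (φ T)) * ι (φ J) := by noncomm_ring
        _ = -(ι (φ J) * ι (φ J)) := by rw [hT]; noncomm_ring
        _ = 1 := by rw [hJ, neg_neg]
    apply five_aux k1 k2
    · rw [← map_mul, ← hφ, ← map_mul, ← map_mul, ← map_mul, ← map_mul, ← hφ, ← hφ, ← hφ, ← hφ]
      have : T * J * (T * J) * (T * J) * (T * J) * (T * J) = 1 := by decide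
      rw [this, hφ1, map_one]
    · rw [← map_mul, ← hφ]
      intro h
      have h1 : φ (T * J) = 1 := hι (by rw [h, map_one])
      exact absurd (hφi _ h1) (by decide)
  set u := ι (φ T) * ι (φ J) + ι (φ J) * ι (φ T) with hu
  have hs := u_sq h5
  have hsx : ∀ x : D, Commute u x → Commute (2 * u + 1) x := fun x hx =>
    ((Nat.cast_commute 2 x).mul_left hx).add_left (Commute.one_left x)
  have hum : Commute u (ι m) := by
    rw [hu]
    exact (((hcomm T).mul_right (hcomm J)).add_right ((hcomm J).mul_right (hcomm T))).symm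
  refine H74.DivQuat.no_prime hI hJ hanti hs (hsx _ c1) (hsx _ c2) (hsx _ hum) (hcomm I) (hcomm J)
    hp h7 (m := ι m) ?_ ?_
  · rw [← map_pow, hmp, map_one]
  · intro h
    exact hm1 (hι (by rw [h, map_one]))

end H74.DivRing2
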