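import Mathlib
import Cfsg.Agent.Lib.H74.DivRing2

/-!
# Nonsolvable finite subgroups of division rings: the extension of degree two
-/

set_option autoImplicit false

namespace H74.DivRing3

open Equiv H74.DivRing2 H74.Zass H74.NonSolv

variable {D : Type*} [DivisionRing D] [CharZero D]

theorem final_aux {i j g s : D} (hi : i * i = -1) (hj : j * j = -1) (hg : g * g = -1)
    (hij : j * i = -(i * j)) (hgi : g * i = -(i * g)) (hgj : g * j = (i * j) * g) (hs : s * s = 5)
    (hsi : Commute s i) (hsj : Commute s j) (hgs : g * s = -(s * g)) : False := by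
  have f1 : i * (i * j) = -j := by rw [← mul_assoc, hi]; simp
  have f2 : j * (i * j) = i := by
    rw [← mul_assoc, hij, neg_mul, mul_assoc, hj]; simp
  have f3 : i * j * i = j := by rw [mul_assoc, hij, mul_neg, f1, neg_neg]
  have f4 : i * j * j = -i := by rw [mul_assoc, hj]; simp
  have f5 : i * j * (i * j) = -1 := by rw [mul_assoc, f2, hi]
  set q := j + i * j with hq
  have hgq : g * q = q * g := by
    calc g * q = g * j + (g * i) * j := by rw [hq]; noncomm_ring
      _ = i * j * g + (-(i * g)) * j := by rw [hgj, hgi]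
      _ = i * j * g - i * (g * j) := by noncomm_ring
      _ = i * j * g - (i * (i * j)) * g := by rw [hgj]; noncomm_ring
      _ = q * g := by rw [f1, hq]; noncomm_ring
  have hqi : q * i = -(i * q) := by
    calc q * i = j * i + i * j * i := by rw [hq]; noncomm_ring
      _ = -(i * j) + j := by rw [hij, f3]
      _ = -(i * j + i * (i * j)) := by rw [f1]; abel
      _ = _ := by rw [hq]; noncomm_ring
  obtain ⟨r, hr⟩ : ∃ r, r = q * g := ⟨_, rfl⟩
  have hri : Commute r i := by
    change r * i = i * r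
    calc r * i = q * (g * i) := by rw [hr]; noncomm_ring
      _ = -((q * i) * g) := by rw [hgi]; noncomm_ring
      _ = i * r := by rw [hqi, hr]; noncomm_ring
  have hqk : q * (i * j) = j * q := by
    calc q * (i * j) = j * (i * j) + i * j * (i * j) := by rw [hq]; noncomm_ring
      _ = j * (i * j) + j * j := by rw [f5, hj]
      _ = _ := by rw [hq]; noncomm_ring
  have hrj : Commute r j := by
    change r * j = j * r
    calc r * j = q * (g * j) := by rw [hr]; noncomm_ring
      _ = (q * (i * j)) * g := by rw [hgj]; noncomm_ring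
      _ = _ := by rw [hqk, hr]; noncomm_ring
  have hsq : Commute s q := hsj.add_right (hsi.mul_right hsj)
  have hrs : r * s = -(s * r) := by
    calc r * s = q * (g * s) := by rw [hr]; noncomm_ring
      _ = -((q * s) * g) := by rw [hgs]; noncomm_ring
      _ = -((s * q) * g) := by rw [hsq.eq]
      _ = _ := by rw [hr]; noncomm_ring
  have hqq : q * q = -2 := by
    calc q * q = j * j + j * (i * j) + i * j * j + i * j * (i * j) := by rw [hq]; noncomm_ring
      _ = -2 := by rw [hj, f2, f4, f5]; norm_num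
  have hrr : r * r = 2 := by
    calc r * r = q * (g * q) * g := by rw [hr]; noncomm_ring
      _ = (q * q) * (g * g) := by rw [hgq]; noncomm_ring
      _ = 2 := by rw [hqq, hg]; norm_num
  set v := 3 * i + j with hv
  have hvv : v * v = -10 := by
    have h3 : (3 : D) = 1 + 1 + 1 := by norm_num
    calc v * v = 9 * (i * i) + 3 * (i * j + j * i) + j * j := by rw [hv, h3]; noncomm_ring
      _ = -10 := by rw [hi, hj, hij]; norm_num
  obtain ⟨w, hw⟩ : ∃ w, w = r * s := ⟨_, rfl⟩
  have hsr : s * r = -(r * s) := by rw [hrs, neg_neg]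
  have hww : w * w = -10 := by
    calc w * w = r * (s * r) * s := by rw [hw]; noncomm_ring
      _ = -((r * r) * (s * s)) := by rw [hsr]; noncomm_ring
      _ = -10 := by rw [hrr, hs]; norm_num
  have hvr : Commute v r := ((Nat.cast_commute 3 r).mul_left hri.symm).add_left hrj.symm
  have hvs : Commute v s := ((Nat.cast_commute 3 s).mul_left hsi.symm).add_left hsj.symm
  have hvw : Commute v w := by rw [hw]; exact hvr.mul_right hvs
  have hprod : (v - w) * (v + w) = 0 := by
    calc (v - w) * (v + w) = v * v - w * w + (v * w - w * v) := by noncomm_ring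
      _ = 0 := by rw [hvv, hww, hvw.eq]; noncomm_ring
  have hsw : s * w = -(w * s) := by
    calc s * w = (s * r) * s := by rw [hw]; noncomm_ring
      _ = _ := by rw [hsr, hw]; noncomm_ring
  have key : Commute w s → False := by
    intro h
    have h1 : w * s = -(w * s) := by rw [← hsw]; exact h.eq
    have h2 : (2 : D) * (w * s) = 0 := by
      have : (2 : D) * (w * s) = w * s - (-(w * s)) := by noncomm_ring
      rw [this, ← h1, sub_self]
    have h3 := (mul_eq_zero.1 h2).resolve_left two_ne_zero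
    rcases mul_eq_zero.1 h3 with h4 | h4
    · rw [h4, mul_zero] at hww
      norm_num at hww
    · rw [h4, mul_zero] at hs
      norm_num at hs
  rcases mul_eq_zero.1 hprod with h | h
  · apply key
    rw [← sub_eq_zero.1 h]; exact hvs
  · apply key
    have h1 : w = -v := by
      rw [add_comm] at h
      exact eq_neg_of_add_eq_zero_left h
    rw [h1]; exact hvs.neg_left

variable {G : Type*} [Group G] (ι : G →* D) (hι : Function.Injective ι)

theorem pi_i : (swap 0 1 * swap 2 3 : Perm (Fin 5)) ≠ 1 ∧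
    (swap 0 1 * swap 2 3 : Perm (Fin 5)) * (swap 0 1 * swap 2 3) = 1 := by decide

include hι

theorem no_index_two (L : Subgroup G) [L.Normal] (e : L ≃* SL5)
    (hC : Subgroup.centralizer (L : Set G) ≤ L) (hL : L ≠ ⊤) : False := by
  classical
  obtain ⟨π, hker, hmap⟩ := exists_pi L e
  have hkerL : ∀ x : G, π x = 1 → x ∈ L := fun x hx => hC (by rw [← hker]; exact hx)
  -- surjectivity
  obtain ⟨g0, hg0⟩ : ∃ g : G, g ∉ L := by
    by_contra hcon
    push Not at hcon
    exact hL (by rw [eq_top_iff]; exact fun x _ => hcon x)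
  have hA : ∀ τ : Perm (Fin 5), Perm.sign τ = 1 → ∃ l ∈ L, π l = τ := by
    intro τ hτ
    have : τ ∈ L.map π := by rw [hmap]; exact Perm.mem_alternatingGroup.2 hτ
    exact this
  have hg0' : Perm.sign (π g0) ≠ 1 := by
    intro h
    obtain ⟨l, hl, hlg⟩ := hA _ h
    apply hg0
    have h1 : π (l⁻¹ * g0) = 1 := by rw [map_mul, map_inv, hlg, inv_mul_cancel]
    have h2 := L.mul_mem hl (hkerL _ h1)
    rwa [mul_inv_cancel_left] at h2
  have hg0'' : Perm.sign (π g0) = -1 := (Int.units_eq_one_or _).resolve_left hg0'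
  have hsurj : ∀ τ : Perm (Fin 5), ∃ x : G, π x = τ := by
    intro τ
    rcases Int.units_eq_one_or (Perm.sign τ) with h | h
    · obtain ⟨l, _, hl⟩ := hA τ h
      exact ⟨l, hl⟩
    · obtain ⟨l, _, hl⟩ := hA ((π g0)⁻¹ * τ) (by rw [map_mul, map_inv, hg0'', h]; decide)
      exact ⟨g0 * l, by rw [map_mul, hl, mul_inv_cancel_left]⟩
  -- signs
  have hsign : ∀ x : G, π x = 1 → ι x = 1 ∨ ι x = -1 := by
    intro x hx
    have hxL := hkerL x hx
    have hxC : x ∈ Subgroup.centralizer (L : Set G) := by rw [← hker]; exact hx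
    have h1 : e ⟨x, hxL⟩ ∈ Subgroup.center SL5 := by
      rw [Subgroup.mem_center_iff]
      intro y
      have h2 := Subgroup.mem_centralizer_iff.1 hxC (e.symm y) (e.symm y).2
      have h3 : e.symm y * ⟨x, hxL⟩ = ⟨x, hxL⟩ * e.symm y := Subtype.ext h2
      have h4 := congrArg e h3
      rw [map_mul, map_mul, MulEquiv.apply_symm_apply] at h4
      exact h4
    rw [Matrix.SpecialLinearGroup.mem_center_iff] at h1
    obtain ⟨r, hr, hrx⟩ := h1
    have h2 : e ⟨x, hxL⟩ * e ⟨x, hxL⟩ = 1 := by
      apply Subtype.ext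
      rw [Matrix.SpecialLinearGroup.coe_mul, ← hrx, ← map_mul, Matrix.SpecialLinearGroup.coe_one]
      rw [Fintype.card_fin, pow_two] at hr
      rw [hr, map_one]
    rw [← map_mul, MulEquiv.map_eq_one_iff] at h2
    have h3 : x * x = 1 := congrArg Subtype.val h2
    apply mul_self_eq_one_iff.1
    rw [← map_mul, h3, map_one]
  have hpm : ∀ a b : G, π a = π b → ι a = ι b ∨ ι a = -ι b := by
    intro a b hab
    have h1 : π (a * b⁻¹) = 1 := by rw [map_mul, map_inv, hab, mul_inv_cancel]
    have h2 : ι a = ι (a * b⁻¹) * ι b := by rw [← map_mul, inv_mul_cancel_right]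
    rcases hsign _ h1 with h | h
    · left; rw [h2, h, one_mul]
    · right; rw [h2, h]; simp
  have hsqneg : ∀ x : G, π x ≠ 1 → π x * π x = 1 → ι x * ι x = -1 := by
    intro x hx1 hx2
    rw [← map_mul] at hx2 ⊢
    rcases hsign _ hx2 with h | h
    · exfalso
      apply hx1
      rw [map_mul] at h
      have hcomm : ∀ y : G, x * y = y * x := by
        intro y
        apply hι
        rw [map_mul, map_mul]
        rcases mul_self_eq_one_iff.1 h with h1 | h1 <;> rw [h1] <;> simp
      have : x ∈ Subgroup.centralizer (L : Set G) := Subgroup.mem_centralizer_iff.2 fun y _ => (hcomm y).symm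
      rw [← hker] at this
      exact this
    · exact h
  obtain ⟨i0, hi0⟩ := hsurj (swap 0 1 * swap 2 3)
  obtain ⟨j, hj⟩ := hsurj (swap 0 2 * swap 1 3)
  obtain ⟨t0, ht0⟩ := hsurj (swap 1 4 * swap 2 3)
  obtain ⟨g, hg⟩ := hsurj (swap 0 1)
  obtain ⟨w, hw⟩ := hsurj (swap 1 3 * swap 3 4 * swap 4 2)
  -- the element `-1`
  have hi0sq : ι i0 * ι i0 = -1 := hsqneg i0 (by rw [hi0]; decide) (by rw [hi0]; decide)
  set z := i0 * i0 with hz
  have hιz : ι z = -1 := by rw [hz, map_mul, hi0sq]
  have hπz : π z = 1 := by rw [hz, map_mul, hi0]; decide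
  have hjsq : ι j * ι j = -1 := hsqneg j (by rw [hj]; decide) (by rw [hj]; decide)
  have hgsq : ι g * ι g = -1 := hsqneg g (by rw [hg]; decide) (by rw [hg]; decide)
  -- choice of `i`
  obtain ⟨i, hi, hgj⟩ : ∃ i : G, π i = swap 0 1 * swap 2 3 ∧ ι (g * j) = ι (i * j * g) := by
    have h1 : π (g * j) = π (i0 * j * g) := by
      rw [map_mul, map_mul, map_mul, hi0, hj, hg]; decide
    rcases hpm _ _ h1 with h | h
    · exact ⟨i0, hi0, h⟩
    · refine ⟨z * i0, by rw [map_mul, hπz, one_mul, hi0], ?_⟩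
      rw [h, mul_assoc z, mul_assoc z, map_mul ι z, hιz]; simp
  have hisq : ι i * ι i = -1 := hsqneg i (by rw [hi]; decide) (by rw [hi]; decide)
  have hijsq : (ι i * ι j) * (ι i * ι j) = -1 := by
    rw [← map_mul]
    exact hsqneg _ (by rw [map_mul, hi, hj]; decide) (by rw [map_mul, hi, hj]; decide)
  have hanti := anti_of hisq hjsq hijsq
  have hgisq : (ι g * ι i) * (ι g * ι i) = -1 := by
    rw [← map_mul]
    exact hsqneg _ (by rw [map_mul, hg, hi]; decide) (by rw [map_mul, hg, hi]; decide)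
  have hgi : ι i * ι g = -(ι g * ι i) := anti_of hgsq hisq hgisq
  -- choice of `t`
  obtain ⟨t, ht, hti3⟩ : ∃ t : G, π t = swap 1 4 * swap 2 3 ∧ ι ((t * i) ^ 3) = 1 := by
    have h1 : π ((t0 * i) ^ 3) = 1 := by
      rw [map_pow, map_mul, ht0, hi]; decide
    rcases hsign _ h1 with h | h
    · exact ⟨t0, ht0, h⟩
    · refine ⟨z * t0, by rw [map_mul, hπz, one_mul, ht0], ?_⟩
      rw [map_pow, mul_assoc, map_mul, hιz, neg_one_mul, Odd.neg_pow (by decide), ← map_pow, h, neg_neg]
  have htsq : ι t * ι t = -1 := hsqneg t (by rw [ht]; decide) (by rw [ht]; decide)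
  have hti : ι t * ι i + ι i * ι t = -1 := by
    apply eq_neg_half ι hι htsq hisq
    · apply hι; rw [hti3, map_one]
    · intro h
      have := congrArg π h
      rw [map_mul, ht, hi, map_one] at this
      revert this
      decide
  obtain ⟨c1, c2, c3⟩ := comm_trick hjsq htsq hanti hti
  -- `y`
  have hy5 : π ((t * j) ^ 5) = 1 := by
    rw [map_pow, map_mul, ht, hj]; decide
  obtain ⟨y, ε, hπy, hε, hy, hyy, hy5⟩ : ∃ (y : G) (ε : D), π y = π (t * j) ∧ (ε = 1 ∨ ε = -1) ∧
      ι y = ε * (ι t * ι j) ∧ ι y⁻¹ = ε * (ι j * ι t) ∧ ι (y ^ 5) = 1 := by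
    have k1 : (ι t * ι j) * (ι j * ι t) = 1 := by
      calc (ι t * ι j) * (ι j * ι t) = ι t * (ι j * ι j) * ι t := by noncomm_ring
        _ = -(ι t * ι t) := by rw [hjsq]; noncomm_ring
        _ = 1 := by rw [htsq, neg_neg]
    have k2 : ι (t * j)⁻¹ = ι j * ι t := by
      have h1 : ι (t * j) * ι (t * j)⁻¹ = 1 := inv_eq ι _
      rw [map_mul] at h1
      have h2 : ι t * ι j ≠ 0 := by
        intro h3; rw [h3, zero_mul] at k1; exact zero_ne_one k1
      exact mul_left_cancel₀ h2 (h1.trans k1.symm)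
    rcases hsign _ hy5 with h | h
    · exact ⟨t * j, 1, rfl, Or.inl rfl, by rw [map_mul, one_mul], by rw [k2, one_mul], h⟩
    · refine ⟨z * (t * j), -1, by rw [map_mul, hπz, one_mul], Or.inr rfl, ?_, ?_, ?_⟩
      · rw [map_mul, hιz, map_mul]
      · have hz2 : ι z⁻¹ = -1 := by
          have h1 := inv_eq ι z
          rw [hιz, neg_one_mul, neg_eq_iff_eq_neg] at h1
          exact h1
        rw [mul_inv_rev, map_mul, k2, hz2]; noncomm_ring
      · rw [map_pow, map_mul, hιz, neg_one_mul, Odd.neg_pow (by decide), ← map_pow, h, neg_neg]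
  have hεε : ε * ε = 1 := by rcases hε with h | h <;> rw [h] <;> simp
  have hεc : ∀ x : D, Commute ε x := by
    intro x
    rcases hε with h | h <;> rw [h]
    · exact Commute.one_left x
    · exact (Commute.one_left x).neg_left
  set u := ι y + ι y⁻¹ with hu
  have hu' : u = ε * (ι t * ι j + ι j * ι t) := by rw [hu, hy, hyy, mul_add]
  have hui : Commute u (ι i) := by rw [hu']; exact (hεc _).mul_left c1
  have huj : Commute u (ι j) := by rw [hu']; exact (hεc _).mul_left c2
  have hut : Commute u (ι t) := by rw [hu']; exact (hεc _).mul_left c3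
  have hyi1 : ι y * ι y⁻¹ = 1 := inv_eq ι y
  have hyi2 : ι y⁻¹ * ι y = 1 := by
    have := inv_eq ι y⁻¹
    rwa [inv_inv] at this
  have hπy1 : π y ≠ 1 := by rw [hπy, map_mul, ht, hj]; decide
  have hu5 : u * u + u - 1 = 0 := by
    apply five_aux hyi1 hyi2
    · rw [← hy5, map_pow]; simp only [pow_succ, pow_zero, one_mul]
    · intro h
      apply hπy1
      have : y = 1 := hι (by rw [h, map_one])
      rw [this, map_one]
  have hs := u_sq hu5
  -- the action of `w`
  have hwy : ι w * ι y = ι y * ι y * ι w := by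
    have h1 : π (w * y * w⁻¹) = π (y * y) := by
      rw [map_mul, map_mul, map_mul, map_inv, hπy, map_mul, ht, hj, hw]; decide
    have h2 : ι (w * y * w⁻¹) = ι (y * y) := by
      rcases hpm _ _ h1 with h | h
      · exact h
      · exfalso
        have h3 : ι ((w * y * w⁻¹) ^ 5) = 1 := by
          have : (w * y * w⁻¹) ^ 5 = w * y ^ 5 * w⁻¹ := by rw [conj_pow]
          rw [this, map_mul, map_mul, hy5, mul_one, inv_eq]
        rw [map_pow, h, Odd.neg_pow (by decide), ← map_pow] at h3
        have h4 : (y * y) ^ 5 = y ^ 5 * y ^ 5 := (Commute.refl y).mul_pow 5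
        rw [h4, map_mul, hy5, one_mul] at h3
        have h5 : (2 : D) = 0 := by
          calc (2 : D) = 1 - (-1) := by norm_num
            _ = 0 := by rw [h3, sub_self]
        exact two_ne_zero h5
    have h3 : w * y * w⁻¹ * w = w * y := by group
    rw [← map_mul, ← h3, map_mul, h2, map_mul]
  have hwy' : ι w * ι y⁻¹ = ι y⁻¹ * ι y⁻¹ * ι w := by
    calc ι w * ι y⁻¹ = (ι y⁻¹ * ι y⁻¹) * (ι y * ι y * ι w) * ι y⁻¹ := by
          have : (ι y⁻¹ * ι y⁻¹) * (ι y * ι y * ι w) * ι y⁻¹ =
            ι y⁻¹ * (ι y⁻¹ * ι y) * ι y * ι w * ι y⁻¹ := by simp only [mul_assoc]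
          rw [this, hyi2, mul_one, hyi2, one_mul]
      _ = (ι y⁻¹ * ι y⁻¹) * (ι w * ι y) * ι y⁻¹ := by rw [hwy]
      _ = (ι y⁻¹ * ι y⁻¹) * ι w * (ι y * ι y⁻¹) := by simp only [mul_assoc]
      _ = _ := by rw [hyi1, mul_one]
  have hwu : ι w * u = (-1 - u) * ι w := by
    have h1 : ι y * ι y + ι y⁻¹ * ι y⁻¹ = -1 - u := by
      have h2 : u * u = ι y * ι y + ι y⁻¹ * ι y⁻¹ + 1 + 1 := by
        have : u * u = ι y * ι y + ι y * ι y⁻¹ + ι y⁻¹ * ι y + ι y⁻¹ * ι y⁻¹ := by
          rw [hu]; noncomm_ring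
        rw [this, hyi1, hyi2]; abel
      have h3 : ι y * ι y + ι y⁻¹ * ι y⁻¹ = u * u - 1 - 1 := by rw [h2]; abel
      have h4 : u * u = 1 - u := by
        have : u * u = (u * u + u - 1) + (1 - u) := by abel
        rw [this, hu5, zero_add]
      rw [h3, h4]; abel
    calc ι w * u = ι w * ι y + ι w * ι y⁻¹ := by rw [hu, mul_add]
      _ = (ι y * ι y + ι y⁻¹ * ι y⁻¹) * ι w := by rw [hwy, hwy', add_mul]
      _ = _ := by rw [h1]
  have hws : ι w * (2 * u + 1) = -((2 * u + 1) * ι w) := by
    have h2 : (2 : D) = 1 + 1 := by norm_num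
    calc ι w * (2 * u + 1) = 2 * (ι w * u) + ι w := by rw [h2]; noncomm_ring
      _ = 2 * ((-1 - u) * ι w) + ι w := by rw [hwu]
      _ = _ := by rw [h2]; noncomm_ring
  have hsx : ∀ x : D, Commute u x → Commute (2 * u + 1) x := fun x hx =>
    ((Nat.cast_commute 2 x).mul_left hx).add_left (Commute.one_left x)
  have hsi := hsx _ hui
  have hsj := hsx _ huj
  have hst := hsx _ hut
  -- the action of `g`
  have hgs : ι g * (2 * u + 1) = -((2 * u + 1) * ι g) := by
    have h1 : π g = π (w * (i * t * j * t)) := by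
      rw [map_mul, map_mul, map_mul, map_mul, hg, hw, hi, ht, hj]; decide
    have hc : Commute (2 * u + 1) (ι (i * t * j * t)) := by
      rw [map_mul, map_mul, map_mul]
      exact ((hsi.mul_right hst).mul_right hsj).mul_right hst
    have h2 : ι (w * (i * t * j * t)) * (2 * u + 1) = -((2 * u + 1) * ι (w * (i * t * j * t))) := by
      rw [map_mul, mul_assoc, ← hc.eq, ← mul_assoc, hws]; noncomm_ring
    rcases hpm _ _ h1 with h | h
    · rw [h, h2]
    · rw [h, neg_mul, h2]; noncomm_ring
  rw [map_mul, map_mul, map_mul] at hgj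
  refine final_aux hisq hjsq hgsq hanti ?_ hgj hs hsi hsj hgs
  rw [hgi, neg_neg]

end H74.DivRing3
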