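import Mathlib

set_option autoImplicit false
set_option linter.unusedSectionVars false

/-! Automorphisms of odd order of doubly transitive groups. -/

namespace H74.OddAut

open MulAction

variable {Ω : Type*} [Fintype Ω] [DecidableEq Ω]

theorem two_trans {G : Subgroup (Equiv.Perm Ω)} (h2 : IsMultiplyPretransitive G Ω 2) {a b c d : Ω} (hab : a ≠ b)
    (hcd : c ≠ d) : ∃ g : G, g • a = c ∧ g • b = d :=
  is_two_pretransitive_iff.1 h2 hab hcd

/-- matrices invariant under a doubly transitive group -/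
theorem exists_ab {G : Subgroup (Equiv.Perm Ω)} (h2 : IsMultiplyPretransitive G Ω 2) (hn : 2 ≤ Fintype.card Ω)
    (X : Matrix Ω Ω ℤ) (hX : ∀ (h : G) (x y : Ω), X (h • x) (h • y) = X x y) :
    ∃ a b : ℤ, X = a • (1 : Matrix Ω Ω ℤ) + b • Matrix.of (fun _ _ => 1) := by
  obtain ⟨u, v, huv⟩ := Fintype.exists_pair_of_one_lt_card (by omega : 1 < Fintype.card Ω)
  have htr : ∀ x : Ω, ∃ g : G, g • u = x := by
    intro x
    obtain ⟨y, hy⟩ : ∃ y, x ≠ y := by
      by_cases h : x = u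
      · exact ⟨v, by rw [h]; exact huv⟩
      · exact ⟨u, h⟩
    obtain ⟨g, hg, -⟩ := two_trans h2 huv hy
    exact ⟨g, hg⟩
  refine ⟨X u u - X u v, X u v, ?_⟩
  ext x y
  rw [Matrix.add_apply, Matrix.smul_apply, Matrix.smul_apply, Matrix.of_apply, smul_eq_mul, smul_eq_mul, mul_one]
  by_cases hxy : x = y
  · subst hxy
    obtain ⟨g, hg⟩ := htr x
    rw [Matrix.one_apply_eq, mul_one, ← hg, hX]
    ring
  · obtain ⟨g, hg1, hg2⟩ := two_trans h2 huv hxy
    rw [Matrix.one_apply_ne hxy, mul_zero, zero_add, ← hg1, ← hg2, hX]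

/-- arithmetic -/
theorem arith {n k : ℕ} {lam a b : ℤ} {m : ℕ} (hn : 2 ≤ n) (hk : 0 < k) (hkn : k < n) (hcop : Nat.Coprime k n)
    (hm : Odd m) (hlam : 0 ≤ lam) (h1 : (k : ℤ) ^ 2 = k + lam * (n - 1)) (h2 : a ^ 2 = (k - lam) ^ m)
    (h3 : (k : ℤ) ^ m = a + b * n) : k = 1 ∨ k = n - 1 := by
  have hkl : 0 < (k : ℤ) - lam := by
    by_contra h
    have h4 : (k : ℤ) ≤ lam := by omega
    have h5 : (k : ℤ) * n ≤ k ^ 2 := by
      have hn1 : (0 : ℤ) ≤ n - 1 := by omega
      rw [h1]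
      nlinarith
    have h6 : (0 : ℤ) < k := by exact_mod_cast hk
    have h7 : (k : ℤ) < n := by exact_mod_cast hkn
    nlinarith
  -- `k - lam` is a square
  obtain ⟨s, hs0, hs⟩ : ∃ s : ℤ, 0 < s ∧ (k : ℤ) - lam = s ^ 2 := by
    obtain ⟨t, ht⟩ := hm
    have h4 : IsSquare (((k : ℤ) - lam) ^ m) := ⟨a, by rw [← h2, pow_two]⟩
    have h5 : IsSquare ((k : ℤ) - lam) := by
      obtain ⟨c, hc⟩ : ∃ c : ℕ, (k : ℤ) - lam = c := ⟨((k : ℤ) - lam).toNat, by omega⟩
      rw [hc] at h4 ⊢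
      have h4' : IsSquare (c ^ m) := by
        have : IsSquare (((c ^ m : ℕ) : ℤ)) := by push_cast; exact h4
        exact Int.isSquare_natCast_iff.1 this
      have h6 : IsSquare c := by
        rw [ht] at h4'
        obtain ⟨w, hw⟩ := h4'
        have hc0 : 0 < c := by omega
        have h7 : (c ^ t) ^ 2 ∣ w ^ 2 := by
          rw [pow_two w, ← hw, ← pow_mul, mul_comm t 2]
          exact pow_dvd_pow c (by omega)
        have h8 : c ^ t ∣ w := (Nat.pow_dvd_pow_iff (by norm_num)).1 h7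
        obtain ⟨z, hz⟩ := h8
        refine ⟨z, ?_⟩
        have h9 : c ^ (2 * t) * c = c ^ (2 * t) * (z * z) := by
          rw [← pow_succ, hw, hz]
          ring
        exact Nat.eq_of_mul_eq_mul_left (pow_pos hc0 _) h9
      exact Int.isSquare_natCast_iff.2 h6
    obtain ⟨s, hs⟩ := h5
    have hs' : s ≠ 0 := by
      rintro rfl
      omega
    exact ⟨|s|, abs_pos.2 hs', by rw [sq_abs, hs, pow_two]⟩
  have ha : a = s ^ m ∨ a = - s ^ m := by
    rw [hs, ← pow_mul, mul_comm 2 m, pow_mul] at h2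
    exact sq_eq_sq_iff_eq_or_eq_neg.1 h2
  -- congruences modulo `n`
  have hc1 : ((n : ℤ)) ∣ (k : ℤ) ^ 2 - s ^ 2 := by
    refine ⟨lam, ?_⟩
    rw [← hs, h1]; ring
  have hkcop : IsCoprime (k : ℤ) n := Nat.isCoprime_iff_coprime.2 hcop
  have hscop : IsCoprime s (n : ℤ) := by
    have h4 : IsCoprime ((k : ℤ) ^ 2) n := hkcop.pow_left
    have h5 : IsCoprime (s ^ 2) (n : ℤ) := by
      obtain ⟨c, hc⟩ := hc1
      have : s ^ 2 = (k : ℤ) ^ 2 + n * (-c) := by linear_combination -hc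
      rw [this]
      exact IsCoprime.add_mul_left_left h4 _
    exact (IsCoprime.pow_left_iff (by norm_num)).1 h5
  obtain ⟨t, ht⟩ := hm
  have hc2 : (n : ℤ) ∣ (k : ℤ) ^ m - k * s ^ (m - 1) := by
    have h4 : (n : ℤ) ∣ ((k : ℤ) ^ 2) ^ t - (s ^ 2) ^ t := hc1.trans (sub_dvd_pow_sub_pow _ _ t)
    have h5 : (k : ℤ) ^ m - k * s ^ (m - 1) = k * (((k : ℤ) ^ 2) ^ t - (s ^ 2) ^ t) := by
      rw [ht, Nat.add_sub_cancel, pow_succ, pow_mul, pow_mul]; ring
    rw [h5]
    exact dvd_mul_of_dvd_right h4 _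
  have hc3 : (n : ℤ) ∣ (k : ℤ) ^ m - a := ⟨b, by rw [h3]; ring⟩
  have hspow : s ^ m = s * s ^ (m - 1) := by
    rw [← pow_succ']
    congr 1
    omega
  have hfin : (n : ℤ) ∣ k - s ∨ (n : ℤ) ∣ k + s := by
    have hs2 : IsCoprime (n : ℤ) (s ^ (m - 1)) := hscop.symm.pow_right
    rcases ha with ha | ha
    · left
      have h4 : (n : ℤ) ∣ (k - s) * s ^ (m - 1) := by
        have := dvd_sub hc3 hc2
        have h5 : ((k : ℤ) - s) * s ^ (m - 1) = (k : ℤ) ^ m - a - ((k : ℤ) ^ m - k * s ^ (m - 1)) := by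
          rw [ha, hspow]; ring
        rw [h5]; exact this
      exact hs2.dvd_of_dvd_mul_right h4
    · right
      have h4 : (n : ℤ) ∣ (k + s) * s ^ (m - 1) := by
        have := dvd_sub hc3 hc2
        have h5 : ((k : ℤ) + s) * s ^ (m - 1) = (k : ℤ) ^ m - a - ((k : ℤ) ^ m - k * s ^ (m - 1)) := by
          rw [ha, hspow]; ring
        rw [h5]; exact this
      exact hs2.dvd_of_dvd_mul_right h4
  have hsk : s ≤ k := by nlinarith
  have hkn' : (k : ℤ) < n := by exact_mod_cast hkn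
  rcases hfin with h4 | h4
  · left
    have h5 : (k : ℤ) - s = 0 := Int.eq_zero_of_dvd_of_nonneg_of_lt (by omega) (by omega) h4
    have h6 : (k : ℤ) = s := by omega
    rw [h6] at hs
    have h7 : s ≤ 1 := by nlinarith
    omega
  · right
    obtain ⟨c, hc⟩ := h4
    have hc1 : c = 1 := by
      have h5 : 0 < c := by
        by_contra h
        have : c ≤ 0 := by omega
        nlinarith
      have h6 : c < 2 := by
        by_contra h
        have : 2 ≤ c := by omega
        nlinarith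
      omega
    rw [hc1, mul_one] at hc
    have h5 : (k : ℤ) = n - s := by omega
    have h6 : lam = n - s - s ^ 2 := by rw [← hs, h5]; ring
    rw [h5, h6] at h1
    have h7 : (n : ℤ) * (s * (s - 1)) = 0 := by linear_combination h1
    have h8 : s * (s - 1) = 0 := by
      rcases mul_eq_zero.1 h7 with h | h
      · omega
      · exact h
    rcases mul_eq_zero.1 h8 with h | h
    · omega
    · omega

end H74.OddAut
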