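import Mathlib
import Cfsg.Agent.Lib.H74.OddAut

set_option autoImplicit false
set_option linter.unusedSectionVars false

/-! Automorphisms of odd order of doubly transitive groups: the incidence matrix. -/

namespace H74.OddAut

open MulAction

variable {Ω : Type*} [Fintype Ω] [DecidableEq Ω] {G : Subgroup (Equiv.Perm Ω)}

open Classical in
/-- the incidence matrix -/
noncomputable def inc (α : MulAut G) (o ω : Ω) : Matrix Ω Ω ℤ :=
  Matrix.of fun x y => if ∃ g : G, g • o = x ∧ (α g) • ω = y then 1 else 0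

theorem inc_smul (α : MulAut G) (o ω : Ω) (h : G) (x y : Ω) : inc α o ω (h • x) ((α h) • y) = inc α o ω x y := by
  classical
  rw [inc, Matrix.of_apply, Matrix.of_apply]
  apply if_congr _ rfl rfl
  constructor
  · rintro ⟨g, h1, h2⟩
    refine ⟨h⁻¹ * g, ?_, ?_⟩
    · rw [mul_smul, h1, inv_smul_smul]
    · rw [map_mul, map_inv, mul_smul, h2, inv_smul_smul]
  · rintro ⟨g, h1, h2⟩
    refine ⟨h * g, ?_, ?_⟩
    · rw [mul_smul, h1]
    · rw [map_mul, mul_smul, h2]

theorem inc_pow_smul (α : MulAut G) (o ω : Ω) (j : ℕ) (h : G) (x y : Ω) :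
    (inc α o ω ^ j) (h • x) (((α ^ j) h) • y) = (inc α o ω ^ j) x y := by
  induction j generalizing h x y with
  | zero =>
    rw [pow_zero, pow_zero, MulAut.one_apply, Matrix.one_apply, Matrix.one_apply]
    apply if_congr _ rfl rfl
    exact smul_left_cancel_iff h
  | succ j ih =>
    rw [pow_succ, Matrix.mul_apply, Matrix.mul_apply]
    rw [← Equiv.sum_comp (MulAction.toPerm ((α ^ j) h) : Equiv.Perm Ω)]
    apply Finset.sum_congr rfl
    intro z _
    rw [MulAction.toPerm_apply, ih, pow_succ', MulAut.mul_apply, inc_smul]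

theorem inc_nonneg (α : MulAut G) (o ω x y : Ω) : 0 ≤ inc α o ω x y := by
  classical
  rw [inc, Matrix.of_apply]
  split_ifs <;> norm_num

theorem inc_sq (α : MulAut G) (o ω x y : Ω) : inc α o ω x y * inc α o ω x y = inc α o ω x y := by
  classical
  rw [inc, Matrix.of_apply]
  split_ifs <;> norm_num

theorem row_sum (α : MulAut G) (o ω : Ω) : ∑ y, inc α o ω o y =
    Nat.card (orbit ((stabilizer G o).map α.toMonoidHom) ω) := by
  classical
  have h1 : ∀ y, inc α o ω o y = if y ∈ orbit ((stabilizer G o).map α.toMonoidHom) ω then 1 else 0 := by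
    intro y
    rw [inc, Matrix.of_apply]
    apply if_congr _ rfl rfl
    constructor
    · rintro ⟨g, h1, h2⟩
      exact ⟨⟨α g, g, h1, rfl⟩, h2⟩
    · rintro ⟨⟨_, g, hg, rfl⟩, hh⟩
      exact ⟨g, hg, hh⟩
  rw [Finset.sum_congr rfl (fun y _ => h1 y), Finset.sum_boole]
  congr 1
  rw [Nat.card_eq_fintype_card, Fintype.card_subtype]

theorem row_sum_smul (α : MulAut G) (o ω : Ω) (h : G) : ∑ y, inc α o ω (h • o) y = ∑ y, inc α o ω o y := by
  rw [← Equiv.sum_comp (MulAction.toPerm (α h) : Equiv.Perm Ω)]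
  apply Finset.sum_congr rfl
  intro z _
  rw [MulAction.toPerm_apply, inc_smul]

theorem col_sum_smul (α : MulAut G) (o ω : Ω) (h : G) (y : Ω) :
    ∑ x, inc α o ω x ((α h) • y) = ∑ x, inc α o ω x y := by
  rw [← Equiv.sum_comp (MulAction.toPerm h : Equiv.Perm Ω)]
  apply Finset.sum_congr rfl
  intro z _
  rw [MulAction.toPerm_apply, inc_smul]

theorem orbit_card (h2 : IsMultiplyPretransitive G Ω 2) (o : Ω) (α : MulAut G) (hα : Odd (orderOf α)) (ω : Ω)
    (hn : 2 ≤ Fintype.card Ω)
    (hk : (Nat.card (orbit ((stabilizer G o).map α.toMonoidHom) ω)).Coprime (Fintype.card Ω)) :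
    Nat.card (orbit ((stabilizer G o).map α.toMonoidHom) ω) = 1 ∨
      Nat.card (orbit ((stabilizer G o).map α.toMonoidHom) ω) = Fintype.card Ω - 1 := by
  classical
  obtain ⟨k, hkd⟩ : ∃ k, k = Nat.card (orbit ((stabilizer G o).map α.toMonoidHom) ω) := ⟨_, rfl⟩
  obtain ⟨n, hnd⟩ : ∃ n, n = Fintype.card Ω := ⟨_, rfl⟩
  obtain ⟨M, hM⟩ : ∃ M, M = inc α o ω := ⟨_, rfl⟩
  have htr : IsPretransitive G Ω := isPretransitive_of_is_two_pretransitive
  have hk0 : 0 < k := by
    rw [hkd]
    have : Nonempty (orbit ((stabilizer G o).map α.toMonoidHom) ω) := ⟨⟨ω, mem_orbit_self ω⟩⟩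
    exact Nat.card_pos
  have hkn : k < n := by
    have h3 : k ≤ n := by
      rw [hkd, hnd, ← Nat.card_eq_fintype_card]
      exact Nat.card_le_card_of_injective _ Subtype.val_injective
    rcases Nat.lt_or_ge k n with h4 | h4
    · exact h4
    · exfalso
      have h5 : k = n := le_antisymm h3 h4
      rw [← hkd, ← hnd, h5, Nat.coprime_self] at hk
      omega
  -- sums
  let e : Ω → ℤ := fun _ => 1
  have hrow : ∀ x, ∑ y, M x y = k := by
    intro x
    obtain ⟨g, rfl⟩ := exists_smul_eq G o x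
    rw [hM, row_sum_smul, row_sum, hkd]
  obtain ⟨u, v, huv⟩ := Fintype.exists_pair_of_one_lt_card (by omega : 1 < Fintype.card Ω)
  have hcol : ∀ y, ∑ x, M x y = k := by
    have h3 : ∀ y, ∑ x, M x y = ∑ x, M x u := by
      intro y
      obtain ⟨g, rfl⟩ := exists_smul_eq G u y
      obtain ⟨h, rfl⟩ := α.surjective g
      rw [hM, col_sum_smul]
    have h4 : ∑ y, ∑ x, M x y = ∑ x, ∑ y, M x y := Finset.sum_comm
    rw [Finset.sum_congr rfl (fun y _ => h3 y), Finset.sum_congr rfl (fun x _ => hrow x), Finset.sum_const,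
      Finset.sum_const, Finset.card_univ, nsmul_eq_mul, nsmul_eq_mul] at h4
    have h5 : ∑ x, M x u = k := by
      apply mul_left_cancel₀ _ h4
      have : (Fintype.card Ω : ℤ) ≠ 0 := by omega
      exact this
    intro y
    rw [h3, h5]
  have hMe : M.mulVec e = (k : ℤ) • e := by
    ext x
    rw [Matrix.mulVec, dotProduct, Pi.smul_apply, smul_eq_mul, mul_one, ← hrow x]
    apply Finset.sum_congr rfl
    intro y _
    exact mul_one _
  have hMte : M.transpose.mulVec e = (k : ℤ) • e := by
    ext x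
    rw [Matrix.mulVec, dotProduct, Pi.smul_apply, smul_eq_mul, mul_one, ← hcol x]
    apply Finset.sum_congr rfl
    intro y _
    exact mul_one _
  have hform : ∀ (a b : ℤ), (a • (1 : Matrix Ω Ω ℤ) + b • Matrix.of (fun _ _ => 1)).mulVec e = (a + b * n) • e := by
    intro a b
    ext x
    rw [Matrix.mulVec, dotProduct, Pi.smul_apply, smul_eq_mul, mul_one]
    have h3 : ∀ y, (a • (1 : Matrix Ω Ω ℤ) + b • (Matrix.of (fun _ _ => 1) : Matrix Ω Ω ℤ) : Matrix Ω Ω ℤ) x y * e y =
        (if x = y then a else 0) + b := by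
      intro y
      rw [Matrix.add_apply, Matrix.smul_apply, Matrix.smul_apply, Matrix.of_apply, Matrix.one_apply, smul_eq_mul,
        smul_eq_mul]
      split_ifs <;> simp [e]
    rw [Finset.sum_congr rfl (fun y _ => h3 y), Finset.sum_add_distrib, Finset.sum_ite_eq, Finset.sum_const,
      Finset.card_univ, ← hnd, nsmul_eq_mul]
    simp [mul_comm]
  let w : Ω → ℤ := Pi.single u 1 - Pi.single v 1
  have hw0 : w ≠ 0 := by
    intro h
    have := congrFun h u
    simp [w, huv] at this
  have hformw : ∀ (a b : ℤ), (a • (1 : Matrix Ω Ω ℤ) + b • Matrix.of (fun _ _ => 1)).mulVec w = a • w := by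
    intro a b
    rw [Matrix.add_mulVec, Matrix.smul_mulVec, Matrix.smul_mulVec, Matrix.one_mulVec]
    have h3 : (Matrix.of (fun _ _ => 1) : Matrix Ω Ω ℤ).mulVec w = 0 := by
      ext x
      rw [Matrix.mulVec, dotProduct]
      simp [w, Finset.sum_sub_distrib]
    rw [h3, smul_zero, add_zero]
  have hcancel : ∀ a b : ℤ, a • w = b • w → a = b := by
    intro a b hab
    have := congrFun hab u
    simpa [w, Pi.single_apply, huv] using this
  have hcancele : ∀ a b : ℤ, a • e = b • e → a = b := by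
    intro a b hab
    have := congrFun hab u
    simpa [e] using this
  -- M Mᵀ
  obtain ⟨a1, b1, hS⟩ := exists_ab h2 hn (M * M.transpose) (by
    intro h x y
    rw [Matrix.mul_apply, Matrix.mul_apply, ← Equiv.sum_comp (MulAction.toPerm (α h) : Equiv.Perm Ω)]
    apply Finset.sum_congr rfl
    intro z _
    rw [MulAction.toPerm_apply, Matrix.transpose_apply, Matrix.transpose_apply, hM, inc_smul, inc_smul])
  obtain ⟨a2, b2, hS'⟩ := exists_ab h2 hn (M.transpose * M) (by
    intro h x y
    obtain ⟨g, rfl⟩ := α.surjective h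
    rw [Matrix.mul_apply, Matrix.mul_apply, ← Equiv.sum_comp (MulAction.toPerm g : Equiv.Perm Ω)]
    apply Finset.sum_congr rfl
    intro z _
    rw [MulAction.toPerm_apply, Matrix.transpose_apply, Matrix.transpose_apply, hM, inc_smul, inc_smul])
  have hd1 : a1 + b1 = k := by
    have h3 := congrFun (congrFun hS u) u
    rw [Matrix.mul_apply, Matrix.add_apply, Matrix.smul_apply, Matrix.smul_apply, Matrix.of_apply, Matrix.one_apply_eq,
      smul_eq_mul, smul_eq_mul, mul_one, mul_one] at h3
    rw [← h3, ← hrow u]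
    apply Finset.sum_congr rfl
    intro z _
    rw [Matrix.transpose_apply, hM, inc_sq]
  have hd2 : a2 + b2 = k := by
    have h3 := congrFun (congrFun hS' u) u
    rw [Matrix.mul_apply, Matrix.add_apply, Matrix.smul_apply, Matrix.smul_apply, Matrix.of_apply, Matrix.one_apply_eq,
      smul_eq_mul, smul_eq_mul, mul_one, mul_one] at h3
    rw [← h3, ← hcol u]
    apply Finset.sum_congr rfl
    intro z _
    rw [Matrix.transpose_apply, hM, inc_sq]
  have he1 : a1 + b1 * n = (k : ℤ) ^ 2 := by
    apply hcancele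
    rw [← hform, ← hS, ← Matrix.mulVec_mulVec, hMte, Matrix.mulVec_smul, hMe, smul_smul, pow_two]
  have he2 : a2 + b2 * n = (k : ℤ) ^ 2 := by
    apply hcancele
    rw [← hform, ← hS', ← Matrix.mulVec_mulVec, hMe, Matrix.mulVec_smul, hMte, smul_smul, pow_two]
  have hb : b1 = b2 := by
    have h3 : (b1 - b2) * ((n : ℤ) - 1) = 0 := by linear_combination he1 - he2 - hd1 + hd2
    rcases mul_eq_zero.1 h3 with h4 | h4
    · omega
    · omega
  have ha : a1 = a2 := by omega
  have hcomm : Commute M M.transpose := by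
    change M * M.transpose = M.transpose * M
    rw [hS, hS', ha, hb]
  -- the power
  obtain ⟨m, hm⟩ : ∃ m, m = orderOf α := ⟨_, rfl⟩
  obtain ⟨a, b, hX⟩ := exists_ab h2 hn (M ^ m) (by
    intro h x y
    have h3 := inc_pow_smul α o ω m h x y
    rw [hm, pow_orderOf_eq_one, MulAut.one_apply, ← hm, ← hM] at h3
    exact h3)
  have hXt : (M.transpose) ^ m = M ^ m := by
    rw [← Matrix.transpose_pow, hX, Matrix.transpose_add, Matrix.transpose_smul, Matrix.transpose_smul,
      Matrix.transpose_one]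
    rfl
  have hpe : ∀ j : ℕ, (M ^ j).mulVec e = ((k : ℤ) ^ j) • e := by
    intro j
    induction j with
    | zero => simp
    | succ j ih => rw [pow_succ', ← Matrix.mulVec_mulVec, ih, Matrix.mulVec_smul, hMe, smul_smul, pow_succ]
  have hpw : ∀ j : ℕ, ((M * M.transpose) ^ j).mulVec w = (a1 ^ j) • w := by
    intro j
    induction j with
    | zero => simp
    | succ j ih =>
      rw [pow_succ', ← Matrix.mulVec_mulVec, ih, Matrix.mulVec_smul, hS, hformw, smul_smul, pow_succ]
  have h3 : (k : ℤ) ^ m = a + b * n := by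
    apply hcancele
    rw [← hpe, hX, hform]
  have h4 : a ^ 2 = a1 ^ m := by
    apply hcancel
    rw [← hpw, hcomm.mul_pow, hXt, ← Matrix.mulVec_mulVec, hX, hformw, Matrix.mulVec_smul, hformw, smul_smul, pow_two]
  have hb0 : 0 ≤ b1 := by
    have h5 := congrFun (congrFun hS u) v
    rw [Matrix.mul_apply, Matrix.add_apply, Matrix.smul_apply, Matrix.smul_apply, Matrix.of_apply,
      Matrix.one_apply_ne huv, smul_eq_mul, smul_eq_mul, mul_one, mul_zero, zero_add] at h5
    rw [← h5]
    apply Finset.sum_nonneg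
    intro z _
    rw [Matrix.transpose_apply, hM]
    exact mul_nonneg (inc_nonneg _ _ _ _ _) (inc_nonneg _ _ _ _ _)
  have ha1 : a1 = k - b1 := by omega
  rw [← hkd, ← hnd]
  rw [← hkd, ← hnd] at hk
  rw [← hm] at hα
  apply arith (lam := b1) (a := a) (b := b) (by omega) hk0 hkn hk hα hb0 _ (by rw [h4, ha1]) h3
  rw [← he1, ha1]; ring

end H74.OddAut
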