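import Mathlib
import Cfsg.Agent.Lib.H74.OddAut2

set_option autoImplicit false
set_option linter.unusedSectionVars false

/-! Automorphisms of odd order of doubly transitive groups are induced by permutations. -/

namespace H74.OddAut

open MulAction

variable {Ω : Type*} [Fintype Ω] {G : Subgroup (Equiv.Perm Ω)}

theorem exists_sigma (htr : IsPretransitive G Ω) (α : MulAut G) (o ω' : Ω)
    (h : ∀ g : G, g • o = o → (α g) • ω' = ω') :
    ∃ σ : Equiv.Perm Ω, σ ∈ Subgroup.normalizer (G : Set (Equiv.Perm Ω)) ∧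
      ∀ g : G, ((α g : G) : Equiv.Perm Ω) = σ * (g : Equiv.Perm Ω) * σ⁻¹ := by
  classical
  have h1 : ∀ x : Ω, ∃ g : G, g • o = x := fun x => exists_smul_eq G o x
  choose t ht using h1
  let f : Ω → Ω := fun x => (α (t x)) • ω'
  have hf : ∀ (g : G) (x : Ω), f (g • x) = (α g) • f x := by
    intro g x
    change (α (t (g • x))) • ω' = (α g) • (α (t x)) • ω'
    have h2 : ((g * t x)⁻¹ * t (g • x)) • o = o := by
      rw [mul_smul, ht, inv_smul_eq_iff, mul_smul, ht]
    have h3 := h _ h2
    rw [map_mul, map_inv, mul_smul, inv_smul_eq_iff, map_mul, mul_smul] at h3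
    exact h3
  have hsurj : Function.Surjective f := by
    intro y
    obtain ⟨g, hg⟩ := exists_smul_eq G (f o) y
    obtain ⟨g, rfl⟩ := α.surjective g
    exact ⟨g • o, by rw [hf, hg]⟩
  have hbij : Function.Bijective f := ⟨Finite.injective_iff_surjective.2 hsurj, hsurj⟩
  let σ : Equiv.Perm Ω := Equiv.ofBijective f hbij
  have hσ : ∀ g : G, ((α g : G) : Equiv.Perm Ω) = σ * (g : Equiv.Perm Ω) * σ⁻¹ := by
    intro g
    rw [eq_mul_inv_iff_mul_eq]
    ext x
    exact (hf g x).symm
  refine ⟨σ, ?_, hσ⟩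
  rw [Subgroup.mem_normalizer_iff]
  intro g
  constructor
  · intro hg
    have := hσ ⟨g, hg⟩
    change σ * g * σ⁻¹ ∈ G
    have h2 : σ * g * σ⁻¹ = ((α ⟨g, hg⟩ : G) : Equiv.Perm Ω) := this.symm
    rw [h2]
    exact (α ⟨g, hg⟩).2
  · intro hg
    obtain ⟨g', hg'⟩ := α.surjective ⟨σ * g * σ⁻¹, hg⟩
    have h2 := hσ g'
    rw [hg'] at h2
    have h3 : g = g' := by
      have h4 : σ * g * σ⁻¹ = σ * g' * σ⁻¹ := h2
      exact mul_left_cancel (mul_right_cancel h4)
    rw [h3]
    exact g'.2

theorem main (h2 : IsMultiplyPretransitive G Ω 2) (o : Ω) (α : MulAut G) (hα : Odd (orderOf α)) (ω : Ω)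
    (hk : (Nat.card (orbit ((stabilizer G o).map α.toMonoidHom) ω)).Coprime (Fintype.card Ω)) :
    (∃ σ : Equiv.Perm Ω, σ ∈ Subgroup.normalizer (G : Set (Equiv.Perm Ω)) ∧
      ∀ g : G, ((α g : G) : Equiv.Perm Ω) = σ * (g : Equiv.Perm Ω) * σ⁻¹) ∧
    (Nat.card (orbit ((stabilizer G o).map α.toMonoidHom) ω) = 1 ∨
      Nat.card (orbit ((stabilizer G o).map α.toMonoidHom) ω) = Fintype.card Ω - 1) := by
  classical
  rcases Nat.lt_or_ge (Fintype.card Ω) 2 with hn | hn
  · -- one point
    have hsub : Subsingleton Ω := Fintype.card_le_one_iff_subsingleton.1 (by omega)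
    refine ⟨⟨1, Subgroup.one_mem _, ?_⟩, Or.inl ?_⟩
    · intro g
      exact Subsingleton.elim _ _
    · have : Unique (orbit ((stabilizer G o).map α.toMonoidHom) ω) :=
        { default := ⟨ω, mem_orbit_self ω⟩, uniq := fun y => Subtype.ext (Subsingleton.elim _ _) }
      exact Nat.card_unique
  have hmain := orbit_card h2 o α hα ω hn hk
  refine ⟨?_, hmain⟩
  have htr : IsPretransitive G Ω := isPretransitive_of_is_two_pretransitive
  rcases hmain with h1 | h1
  · apply exists_sigma htr α o ω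
    intro g hg
    have h3 := (Nat.card_eq_one_iff_unique.1 h1).1
    have h4 : (⟨(α g) • ω, ⟨⟨α g, g, hg, rfl⟩, rfl⟩⟩ : orbit ((stabilizer G o).map α.toMonoidHom) ω) =
        ⟨ω, mem_orbit_self ω⟩ := Subsingleton.elim _ _
    exact congrArg Subtype.val h4
  · -- the complement is one point
    have h3 : Nat.card (orbit ((stabilizer G o).map α.toMonoidHom) ω) = (orbit ((stabilizer G o).map α.toMonoidHom) ω).ncard :=
      rfl
    have h4 : ((orbit ((stabilizer G o).map α.toMonoidHom) ω)ᶜ).ncard = 1 := by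
      have h5 := Set.ncard_add_ncard_compl (orbit ((stabilizer G o).map α.toMonoidHom) ω)
      rw [Nat.card_eq_fintype_card] at h5
      omega
    obtain ⟨ω', hω'⟩ := Set.ncard_eq_one.1 h4
    apply exists_sigma htr α o ω'
    intro g hg
    have h5 : ω' ∈ (orbit ((stabilizer G o).map α.toMonoidHom) ω)ᶜ := by rw [hω']; rfl
    have h6 : (α g) • ω' ∈ (orbit ((stabilizer G o).map α.toMonoidHom) ω)ᶜ := by
      intro h7
      apply h5
      obtain ⟨x, hx⟩ := h7
      refine ⟨(⟨α g, g, hg, rfl⟩ : (stabilizer G o).map α.toMonoidHom)⁻¹ * x, ?_⟩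
      change ((⟨α g, g, hg, rfl⟩ : (stabilizer G o).map α.toMonoidHom)⁻¹ * x) • ω = ω'
      rw [mul_smul, inv_smul_eq_iff]
      exact hx
    rw [hω'] at h6
    exact h6

theorem main_hall (h2 : IsMultiplyPretransitive G Ω 2) (o : Ω)
    (hHall : (Nat.card (stabilizer G o)).Coprime (stabilizer G o).index) (α : MulAut G) (hα : Odd (orderOf α)) :
    ∃ σ : Equiv.Perm Ω, σ ∈ Subgroup.normalizer (G : Set (Equiv.Perm Ω)) ∧
      ∀ g : G, ((α g : G) : Equiv.Perm Ω) = σ * (g : Equiv.Perm Ω) * σ⁻¹ := by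
  classical
  rcases Nat.lt_or_ge (Fintype.card Ω) 2 with hn | hn
  · have hsub : Subsingleton Ω := Fintype.card_le_one_iff_subsingleton.1 (by omega)
    exact ⟨1, Subgroup.one_mem _, fun g => Subsingleton.elim _ _⟩
  have htr : IsPretransitive G Ω := isPretransitive_of_is_two_pretransitive
  have h3 : (stabilizer G o).index = Fintype.card Ω := by
    rw [index_stabilizer_of_transitive, Nat.card_eq_fintype_card]
  have h4 : Nat.card (orbit ((stabilizer G o).map α.toMonoidHom) o) ∣ Nat.card (stabilizer G o) := by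
    have h5 := index_stabilizer ((stabilizer G o).map α.toMonoidHom) o
    have h6 := (stabilizer ((stabilizer G o).map α.toMonoidHom) o).index_dvd_card
    rw [h5] at h6
    have h7 : Nat.card ((stabilizer G o).map α.toMonoidHom) = Nat.card (stabilizer G o) :=
      Subgroup.card_map_of_injective α.injective
    rw [h7] at h6
    exact h6
  exact (main h2 o α hα o (Nat.Coprime.coprime_dvd_left h4 (h3 ▸ hHall))).1

end H74.OddAut
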