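import Mathlib
set_option autoImplicit false

namespace H74.QMod

/-- quaternion relations on an abelian group -/
structure Rel {A : Type*} [AddCommGroup A] (I J : A →+ A) : Prop where
  ii : ∀ x, I (I x) = -x
  jj : ∀ x, J (J x) = -x
  ij : ∀ x, I (J x) = -J (I x)

theorem half {A : Type*} [AddCommGroup A] [Finite A] (hodd : Odd (Nat.card A)) : ∃ h : ℕ, ∀ x : A, h • (x + x) = x := by
  obtain ⟨k, hk⟩ := hodd
  refine ⟨k + 1, fun x => ?_⟩
  have h1 : (2 * k + 1) • x = 0 := by rw [← hk]; exact card_nsmul_eq_zero'
  have h2 : (k + 1) • (x + x) = (2 * k + 1) • x + x := by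
    rw [← two_nsmul, smul_smul, ← succ_nsmul]
    congr 1; ring
  rw [h2, h1, zero_add]

theorem two_tor {A : Type*} [AddCommGroup A] [Finite A] (hodd : Odd (Nat.card A)) {x : A} (hx : x = -x) : x = 0 := by
  obtain ⟨h, hh⟩ := half hodd
  have h1 : x + x = 0 := by nth_rewrite 2 [hx]; exact add_neg_cancel x
  rw [← hh x, h1, smul_zero]

theorem sq_of_coeff {A : Type*} [AddCommGroup A] [Finite A] (hodd : Odd (Nat.card A)) (I J : A →+ A) (h : Rel I J)
    (a b : ℕ) (hab : ∀ x : A, (a ^ 2 + b ^ 2 + 1) • x = 0) : IsSquare (Nat.card A) := by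
  let e : A →+ A := a • I + b • J
  let K : A →+ A := I.comp J
  have he : ∀ x, e x = a • I x + b • J x := fun _ => rfl
  have hK : ∀ x, K x = I (J x) := fun _ => rfl
  have hee : ∀ x, e (e x) = x := by
    intro x
    have h1 : e (e x) = -((a ^ 2 + b ^ 2) • x) := by
      rw [he, he, map_add, map_add, map_nsmul, map_nsmul, map_nsmul, map_nsmul, h.ii, h.jj, h.ij]
      simp only [smul_add, smul_neg, smul_smul, add_smul, neg_add, sq, mul_comm b a]
      abel
    rw [h1, neg_eq_iff_eq_neg, ← add_eq_zero_iff_eq_neg, ← succ_nsmul]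
    exact hab x
  have hKK : ∀ x, K (K x) = -x := by
    intro x
    rw [hK, hK, h.ij, h.ii, map_neg, neg_neg, h.jj]
  have hKe : ∀ x, K (e x) = -e (K x) := by
    intro x
    have e1 : ∀ y, J (I y) = -I (J y) := fun y => by rw [h.ij, neg_neg]
    have e2 : K (e x) = a • J x - b • I x := by
      rw [hK, he, map_add, map_add, map_nsmul, map_nsmul, map_nsmul, map_nsmul, e1, map_neg, h.ii, h.jj, map_neg, neg_neg,
        smul_neg, sub_eq_add_neg]
    have e3 : e (K x) = -(a • J x) + b • I x := by
      rw [he, hK, h.ii, smul_neg, e1, h.jj, map_neg, neg_neg]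
    rw [e2, e3]; abel
  let P : AddSubgroup A :=
    { carrier := {x | e x = x}
      zero_mem' := map_zero e
      add_mem' := fun {x y} hx hy => by
        change e (x + y) = x + y
        rw [map_add, hx, hy]
      neg_mem' := fun {x} hx => by
        change e (-x) = -x
        rw [map_neg, hx] }
  let M : AddSubgroup A :=
    { carrier := {x | e x = -x}
      zero_mem' := by change e 0 = -0; rw [map_zero, neg_zero]
      add_mem' := fun {x y} hx hy => by
        change e (x + y) = -(x + y)
        rw [map_add, hx, hy]; abel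
      neg_mem' := fun {x} hx => by
        change e (-x) = -(-x)
        rw [map_neg, hx] }
  obtain ⟨t, ht⟩ := half hodd
  have hbij : Function.Bijective (fun p : P × M => (p.1 : A) + p.2) := by
    constructor
    · rintro ⟨⟨x, hx⟩, ⟨y, hy⟩⟩ ⟨⟨x', hx'⟩, ⟨y', hy'⟩⟩ hxy
      have h0 : x + y = x' + y' := hxy
      have hx1 : e x = x := hx
      have hx1' : e x' = x' := hx'
      have hy1 : e y = -y := hy
      have hy1' : e y' = -y' := hy'
      have h1 : x - x' = y' - y := by
        rw [sub_eq_sub_iff_add_eq_add, h0]; abel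
      have h2 : x - x' = -(x - x') := by
        have h3 : e (x - x') = x - x' := by rw [map_sub, hx1, hx1']
        have h4 : e (y' - y) = -(y' - y) := by rw [map_sub, hy1, hy1']; abel
        rw [← h1, h3] at h4
        exact h4
      have h3 := two_tor hodd h2
      have h4 : x = x' := sub_eq_zero.mp h3
      subst h4
      have h5 : y = y' := add_left_cancel h0
      subst h5
      rfl
    · intro w
      refine ⟨(⟨t • (w + e w), ?_⟩, ⟨t • (w - e w), ?_⟩), ?_⟩
      · change e (t • (w + e w)) = t • (w + e w)
        rw [map_nsmul, map_add, hee, add_comm]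
      · change e (t • (w - e w)) = -(t • (w - e w))
        rw [map_nsmul, map_sub, hee, ← smul_neg, neg_sub]
      · change t • (w + e w) + t • (w - e w) = w
        rw [← smul_add]
        have : w + e w + (w - e w) = w + w := by abel
        rw [this]; exact ht w
  have hPM : Nat.card P = Nat.card M := by
    have h1 : ∀ x ∈ P, K x ∈ M := by
      intro x hx
      have hx1 : e x = x := hx
      change e (K x) = -K x
      have := hKe x
      rw [hx1] at this
      rw [eq_neg_iff_add_eq_zero, ← neg_eq_iff_add_eq_zero, ← this]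
    have h2 : ∀ x ∈ M, K x ∈ P := by
      intro x hx
      have hx1 : e x = -x := hx
      change e (K x) = K x
      have := hKe x
      rw [hx1, map_neg] at this
      exact (neg_injective this).symm
    have hKi : Function.Injective K := by
      rw [injective_iff_map_eq_zero]
      intro x hx
      have := hKK x
      rw [hx, map_zero] at this
      exact (neg_eq_zero.mp this.symm)
    apply le_antisymm
    · exact Nat.card_le_card_of_injective (fun x : P => (⟨K x, h1 x x.2⟩ : M)) (fun x y hxy =>
        Subtype.ext (hKi (congrArg Subtype.val hxy)))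
    · exact Nat.card_le_card_of_injective (fun x : M => (⟨K x, h2 x x.2⟩ : P)) (fun x y hxy =>
        Subtype.ext (hKi (congrArg Subtype.val hxy)))
  rw [← Nat.card_congr (Equiv.ofBijective _ hbij), Nat.card_prod, hPM]
  exact ⟨Nat.card M, rfl⟩

/-- restriction of the relations to an invariant subgroup -/
theorem Rel.restrict {A : Type*} [AddCommGroup A] {I J : A →+ A} (h : Rel I J) (B : AddSubgroup A)
    (hI : ∀ x ∈ B, I x ∈ B) (hJ : ∀ x ∈ B, J x ∈ B) : ∃ I' J' : B →+ B, Rel I' J' :=
  ⟨(I.comp B.subtype).codRestrict B (fun x => hI x x.2), (J.comp B.subtype).codRestrict B (fun x => hJ x x.2),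
    ⟨fun x => Subtype.ext (h.ii x), fun x => Subtype.ext (h.jj x), fun x => Subtype.ext (h.ij x)⟩⟩

theorem isSquare_card (n : ℕ) : ∀ (A : Type*) [AddCommGroup A] [Finite A], Nat.card A = n → Odd n →
    ∀ I J : A →+ A, Rel I J → IsSquare n := by
  induction n using Nat.strong_induction_on with
  | _ n ih =>
    intro A _ _ hn hodd I J h
    by_cases h1 : n = 1
    · subst h1; exact ⟨1, rfl⟩
    let r := n.minFac
    have hr : r.Prime := Nat.minFac_prime h1
    have hrf : Fact r.Prime := ⟨hr⟩
    have hrn : r ∣ n := Nat.minFac_dvd n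
    obtain ⟨a, b, k, -, -, hk⟩ := _root_.Int.exists_sq_add_sq_add_one_eq_mul r
    let R : A →+ A := nsmulAddMonoidHom r
    have hR : ∀ x, R x = r • x := fun _ => rfl
    let B : AddSubgroup A := R.ker
    let C : AddSubgroup A := R.range
    have hcard : Nat.card B * Nat.card C = n := by
      rw [← hn]
      have := B.card_mul_index
      rwa [AddSubgroup.index_ker] at this
    have hBodd : Odd (Nat.card B) := hodd.of_dvd_nat (Dvd.intro _ hcard)
    have hCodd : Odd (Nat.card C) := hodd.of_dvd_nat (Dvd.intro_left _ hcard)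
    obtain ⟨I₁, J₁, h₁⟩ := h.restrict B (fun x hx => by
      rw [AddMonoidHom.mem_ker, hR] at hx ⊢
      rw [← map_nsmul, hx, map_zero]) (fun x hx => by
      rw [AddMonoidHom.mem_ker, hR] at hx ⊢
      rw [← map_nsmul, hx, map_zero])
    obtain ⟨I₂, J₂, h₂⟩ := h.restrict C (fun x hx => by
      obtain ⟨y, rfl⟩ := hx
      exact ⟨I y, by rw [hR, hR, map_nsmul]⟩) (fun x hx => by
      obtain ⟨y, rfl⟩ := hx
      exact ⟨J y, by rw [hR, hR, map_nsmul]⟩)
    have hB : IsSquare (Nat.card B) := by
      apply sq_of_coeff hBodd I₁ J₁ h₁ a b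
      intro x
      rw [hk]
      have : r • x = 0 := Subtype.ext x.2
      rw [mul_smul, this, smul_zero]
    have hB1 : 1 < Nat.card B := by
      obtain ⟨x, hx⟩ := exists_prime_addOrderOf_dvd_card' (G := A) r (by rw [hn]; exact hrn)
      have hxB : x ∈ B := by
        rw [AddMonoidHom.mem_ker, hR, ← hx]
        exact addOrderOf_nsmul_eq_zero x
      have hx0 : (⟨x, hxB⟩ : B) ≠ 0 := by
        intro h0
        have : x = 0 := congrArg Subtype.val h0
        rw [this, addOrderOf_zero] at hx
        exact hr.one_lt.ne hx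
      have : Nontrivial B := ⟨⟨_, _, hx0⟩⟩
      exact Finite.one_lt_card
    have hC : IsSquare (Nat.card C) := by
      apply ih (Nat.card C) _ C rfl hCodd I₂ J₂ h₂
      have : 0 < Nat.card C := Nat.card_pos
      rw [← hcard]
      nlinarith
    rw [← hcard]
    exact hB.mul hC

end H74.QMod
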