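import Cfsg.Agent.Lib.H74.NonSolv3
set_option autoImplicit false
open Cfsg

namespace H74.Reg
open H74.FrobC H74.FC H74.Zass H74.Perf H74.NonSolv H74.NonSolv2 H74.NonSolv3

variable {p : ℕ} {V : Type*} [AddCommGroup V] [Module (ZMod p) V] [Finite V]

theorem fixed_eq_one {H : Subgroup (V ≃ₗ[ZMod p] V)}
    (hreg : ∀ v w : V, v ≠ 0 → w ≠ 0 → ∃! h : H, (h : V ≃ₗ[ZMod p] V) v = w) (h : H) (v : V) (hv : v ≠ 0)
    (hh : (h : V ≃ₗ[ZMod p] V) v = v) : h = 1 := by
  obtain ⟨k, -, hk⟩ := hreg v v hv hv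
  rw [hk h hh, hk 1 rfl]

theorem isFC {H : Subgroup (V ≃ₗ[ZMod p] V)} [Nontrivial H]
    (hreg : ∀ v w : V, v ≠ 0 → w ≠ 0 → ∃! h : H, (h : V ≃ₗ[ZMod p] V) v = w) : IsFC H := by
  have hV : Nontrivial V := by
    by_contra h
    rw [not_nontrivial_iff_subsingleton] at h
    obtain ⟨g, hg⟩ := exists_ne (1 : H)
    apply hg
    apply Subtype.ext
    apply LinearEquiv.ext
    intro v
    exact Subsingleton.elim _ _
  have hfin : Finite (V ≃ₗ[ZMod p] V) :=
    Finite.of_injective (fun f : V ≃ₗ[ZMod p] V => (f : V → V)) (fun f g h => LinearEquiv.ext (congrFun h))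
  let _ : MulDistribMulAction H (Multiplicative V) :=
    { smul := fun h v => Multiplicative.ofAdd ((h : V ≃ₗ[ZMod p] V) v.toAdd)
      one_smul := fun v => rfl
      mul_smul := fun x y v => rfl
      smul_one := fun h => congrArg Multiplicative.ofAdd (map_zero (h : V ≃ₗ[ZMod p] V))
      smul_mul := fun h v w => congrArg Multiplicative.ofAdd (map_add (h : V ≃ₗ[ZMod p] V) _ _) }
  apply FC_of_fpf (MulDistribMulAction.toMulAut H (Multiplicative V))
  intro g hg v hv
  by_contra hne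
  apply hg
  apply fixed_eq_one hreg g v.toAdd hne
  exact congrArg Multiplicative.toAdd hv

end H74.Reg
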