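import Cfsg.Agent.Lib.H74.Reg
set_option autoImplicit false
set_option linter.unusedSectionVars false
open Cfsg

namespace H74.Reg2

section A
variable {V : Type*} [AddCommGroup V] [Finite V] {H : Type*} [Group H] (j : H →* AddMonoid.End V)
  (R : Subring (AddMonoid.End V))

/-- the cyclic submodule generated by a vector -/
def cyc (v : V) : Set V := {w | ∃ r ∈ R, r v = w}

theorem mem_cyc_self (v : V) : v ∈ cyc R v := ⟨1, R.one_mem, rfl⟩

theorem cyc_trans {u v w : V} (h1 : v ∈ cyc R u) (h2 : w ∈ cyc R v) : w ∈ cyc R u := by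
  obtain ⟨r, hr, rfl⟩ := h1
  obtain ⟨s, hs, rfl⟩ := h2
  exact ⟨s * r, R.mul_mem hs hr, rfl⟩

theorem cyc_add {u v w : V} (h1 : v ∈ cyc R u) (h2 : w ∈ cyc R u) : v + w ∈ cyc R u := by
  obtain ⟨r, hr, rfl⟩ := h1
  obtain ⟨s, hs, rfl⟩ := h2
  exact ⟨r + s, R.add_mem hr hs, rfl⟩

theorem cyc_neg {u v : V} (h1 : v ∈ cyc R u) : -v ∈ cyc R u := by
  obtain ⟨r, hr, rfl⟩ := h1
  exact ⟨-r, R.neg_mem hr, rfl⟩

theorem injective_j (h : H) : Function.Injective (j h) := by
  intro v w hvw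
  have h1 : ∀ v, j h⁻¹ (j h v) = v := by
    intro v
    change (j h⁻¹ * j h) v = v
    rw [← map_mul, inv_mul_cancel, map_one]; rfl
  rw [← h1 v, hvw, h1]

variable {j R}

theorem cyc_card (hN : ∀ h : H, ∀ r ∈ R, j h * r * j h⁻¹ ∈ R) (hreg : ∀ v w : V, v ≠ 0 → w ≠ 0 → ∃ h, j h v = w)
    {v w : V} (hv : v ≠ 0) (hw : w ≠ 0) : (cyc R v).ncard ≤ (cyc R w).ncard := by
  obtain ⟨h, rfl⟩ := hreg v w hv hw
  rw [← Set.ncard_image_of_injective (cyc R v) (injective_j j h)]
  apply Set.ncard_le_ncard _ (Set.toFinite _)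
  rintro _ ⟨_, ⟨r, hr, rfl⟩, rfl⟩
  refine ⟨j h * r * j h⁻¹, hN h r hr, ?_⟩
  change j h (r ((j h⁻¹ * j h) v)) = _
  rw [← map_mul, inv_mul_cancel, map_one]; rfl

theorem cyc_eq (hN : ∀ h : H, ∀ r ∈ R, j h * r * j h⁻¹ ∈ R) (hreg : ∀ v w : V, v ≠ 0 → w ≠ 0 → ∃ h, j h v = w)
    {v w : V} (hv : v ≠ 0) (hw : w ≠ 0) (hwv : w ∈ cyc R v) : cyc R w = cyc R v :=
  Set.eq_of_subset_of_ncard_le (fun _ hx => cyc_trans R hwv hx) (cyc_card hN hreg hv hw) (Set.toFinite _)

/-- a finite ring of endomorphisms in which every nonzero element is injective is commutative -/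
theorem comm_of_inj [Nontrivial V] (h : ∀ r ∈ R, ∀ v : V, v ≠ 0 → r v = 0 → r = 0) : ∀ r ∈ R, ∀ s ∈ R, r * s = s * r := by
  have hfinA : Finite (AddMonoid.End V) := Finite.of_injective (fun f : AddMonoid.End V => (f : V → V)) (fun f g h => AddMonoidHom.ext (congrFun h))
  have hnt : Nontrivial R := by
    refine ⟨⟨1, 0, ?_⟩⟩
    intro h
    obtain ⟨v, hv⟩ := exists_ne (0 : V)
    apply hv
    exact congrArg (fun t : R => (t : AddMonoid.End V) v) h
  have hnz : NoZeroDivisors R := by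
    constructor
    intro r s hrs
    by_contra hc
    push Not at hc
    obtain ⟨h1, h2⟩ := hc
    have h3 : ∃ v, (s : AddMonoid.End V) v ≠ 0 := by
      by_contra h4
      push Not at h4
      apply h2
      apply Subtype.ext
      apply AddMonoidHom.ext
      intro v
      exact h4 v
    obtain ⟨v, hv⟩ := h3
    apply h1
    apply Subtype.ext
    apply h r r.2 _ hv
    exact congrArg (fun t : R => (t : AddMonoid.End V) v) hrs
  have hdom : IsDomain R := NoZeroDivisors.to_isDomain R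
  have hf := Finite.isDomain_to_isField R
  intro r hr s hs
  exact congrArg Subtype.val (hf.mul_comm ⟨r, hr⟩ ⟨s, hs⟩)

theorem cyc_top [Nontrivial V] (hN : ∀ h : H, ∀ r ∈ R, j h * r * j h⁻¹ ∈ R) (hreg : ∀ v w : V, v ≠ 0 → w ≠ 0 → ∃ h, j h v = w)
    (hnc : ∃ r ∈ R, ∃ s ∈ R, r * s ≠ s * r) {v : V} (hv : v ≠ 0) (w : V) : w ∈ cyc R v := by
  by_contra hw
  obtain ⟨r, hr, s, hs, hrs⟩ := hnc
  apply hrs
  refine comm_of_inj ?_ r hr s hs
  -- no cyclic submodule is the full module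
  have hall : ∀ u : V, u ≠ 0 → ∃ x, x ∉ cyc R u := by
    intro u hu
    by_contra hc
    push Not at hc
    have h1 := cyc_card hN hreg hu hv
    have h2 : cyc R u = Set.univ := Set.eq_univ_of_forall hc
    have h3 : cyc R v = Set.univ := by
      rw [h2] at h1
      exact Set.eq_of_subset_of_ncard_le (Set.subset_univ _) h1 (Set.toFinite _)
    rw [h3] at hw
    exact hw (Set.mem_univ w)
  have hann : ∀ r ∈ R, ∀ u x : V, u ≠ 0 → r u = 0 → x ∉ cyc R u → r x = 0 := by
    intro r hr u x hu hru hx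
    by_contra hne
    have hx0 : x ≠ 0 := by
      rintro rfl
      exact hne (map_zero r)
    have hux : u + x ≠ 0 := by
      intro h
      apply hx
      have : x = -u := by rw [eq_neg_iff_add_eq_zero, add_comm]; exact h
      rw [this]
      exact cyc_neg R (mem_cyc_self R u)
    have h1 : r x ∈ cyc R (u + x) := ⟨r, hr, by rw [map_add, hru, zero_add]⟩
    have h2 : r x ∈ cyc R x := ⟨r, hr, rfl⟩
    have h3 : cyc R (u + x) = cyc R x := by
      rw [← cyc_eq hN hreg hux hne h1, ← cyc_eq hN hreg hx0 hne h2]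
    have h4 : u + x ∈ cyc R x := by rw [← h3]; exact mem_cyc_self R _
    have h5 : u ∈ cyc R x := by
      have := cyc_add R h4 (cyc_neg R (mem_cyc_self R x))
      rwa [add_neg_cancel_right] at this
    apply hx
    rw [cyc_eq hN hreg hx0 hu h5]
    exact mem_cyc_self R x
  intro r hr u hu hru
  apply AddMonoidHom.ext
  intro x
  change r x = 0
  by_cases hx : x ∈ cyc R u
  · by_cases hx0 : x = 0
    · rw [hx0, map_zero]
    obtain ⟨y, hy⟩ := hall u hu
    have h1 := hann r hr u y hu hru hy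
    have hy0 : y ≠ 0 := by
      rintro rfl
      exact hy ⟨0, R.zero_mem, rfl⟩
    apply hann r hr y x hy0 h1
    intro hxy
    have h2 : cyc R x = cyc R y := cyc_eq hN hreg hy0 hx0 hxy
    have h3 : cyc R x = cyc R u := cyc_eq hN hreg hu hx0 hx
    apply hy
    rw [← h3, h2]
    exact mem_cyc_self R y
  · exact hann r hr u x hu hru hx

end A

end H74.Reg2
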