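import Cfsg.Agent.Lib.H74.Reg2
set_option autoImplicit false
set_option linter.unusedSectionVars false
open Cfsg

namespace H74.Reg3
open H74.Reg2

section B
variable {V : Type*} [AddCommGroup V] [Finite V] [Nontrivial V] (R : Subring (AddMonoid.End V))

instance finEnd : Finite (AddMonoid.End V) :=
  Finite.of_injective (fun f : AddMonoid.End V => (f : V → V)) (fun _ _ h => AddMonoidHom.ext (congrFun h))

theorem simple (h : ∀ v : V, v ≠ 0 → ∀ w, w ∈ cyc R v) : IsSimpleModule R V := by
  rw [isSimpleModule_iff_toSpanSingleton_surjective]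
  refine ⟨inferInstance, fun v hv w => ?_⟩
  obtain ⟨r, hr, hw⟩ := h v hv w
  exact ⟨⟨r, hr⟩, hw⟩

instance finD : Finite (Module.End R V) :=
  Finite.of_injective (fun f : Module.End R V => (f : V → V)) (fun _ _ h => LinearMap.ext (congrFun h))

/-- elements of the commutant as additive endomorphisms -/
def δ (d : Module.End R V) : AddMonoid.End V := d.toAddMonoidHom

theorem δ_apply (d : Module.End R V) (v : V) : δ R d v = d v := rfl

theorem δ_comm (d : Module.End R V) {r : AddMonoid.End V} (hr : r ∈ R) : δ R d * r = r * δ R d := by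
  apply AddMonoidHom.ext
  intro v
  exact d.map_smul (⟨r, hr⟩ : R) v

theorem δ_add (a b : Module.End R V) : δ R (a + b) = δ R a + δ R b := rfl
theorem δ_mul (a b : Module.End R V) : δ R (a * b) = δ R a * δ R b := rfl
theorem δ_one : δ R 1 = 1 := rfl
theorem δ_zero : δ R 0 = 0 := rfl
theorem δ_neg (a : Module.End R V) : δ R (-a) = -δ R a := rfl

theorem δ_mem_range {f : AddMonoid.End V} (h : ∀ r ∈ R, f * r = r * f) : ∃ d, δ R d = f :=
  ⟨{ toFun := f
     map_add' := map_add f
     map_smul' := fun r v => congrArg (fun t : AddMonoid.End V => t v) (h r r.2) }, rfl⟩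

omit [Finite V] [Nontrivial V] in
theorem dim_div {D : Type*} [DivisionRing D] {V : Type*} [AddCommGroup V] [Finite V] [Nontrivial V] [Module D V] :
    ∃ d : ℕ, d ≠ 0 ∧ Nat.card V = Nat.card D ^ d ∧ Nat.card (Module.End D V) = Nat.card V ^ d := by
  have hfd : Module.Finite D V := Module.Finite.of_finite
  let d := Module.finrank D V
  let b : Module.Basis (Fin d) D V := Module.finBasis D V
  have hV : Nat.card V = Nat.card D ^ d := by
    rw [Nat.card_congr b.equivFun.toEquiv, Nat.card_fun, Nat.card_fin]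
  have hE : Nat.card (Module.End D V) = Nat.card V ^ d := by
    have := Nat.card_congr (b.constr ℕ (M' := V)).toEquiv
    rw [← this, Nat.card_fun, Nat.card_fin]
  exact ⟨d, Module.finrank_pos.ne', hV, hE⟩

/-- dimension count for a simple module -/
theorem dim_two (h : ∀ v : V, v ≠ 0 → ∀ w, w ∈ cyc R v) (hnc : ∃ r ∈ R, ∃ s ∈ R, r * s ≠ s * r)
    (hcard : Nat.card R ≤ Nat.card (Module.End R V) ^ 4) :
    Nat.card V = Nat.card (Module.End R V) ^ 2 := by
  classical
  have hs := simple R h
  obtain ⟨d, hd0, hV, hE⟩ := dim_div (D := Module.End R V) (V := V)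
  have hfd : Module.Finite (Module.End R V) V := Module.Finite.of_finite
  have hinj : Function.Injective (Module.toModuleEnd (Module.End R V) (S := R) V) := by
    intro r s hrs
    apply Subtype.ext
    apply AddMonoidHom.ext
    intro v
    exact congrArg (fun t : Module.End (Module.End R V) V => t v) hrs
  have hsurj : Function.Surjective (Module.toModuleEnd (Module.End R V) (S := R) V) := Module.Finite.toModuleEnd_moduleEnd_surjective
  have hR : Nat.card R = Nat.card (Module.End (Module.End R V) V) := Nat.card_congr (Equiv.ofBijective _ ⟨hinj, hsurj⟩)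
  have hD1 : 1 < Nat.card (Module.End R V) := Finite.one_lt_card
  rw [hR, hE, hV, ← pow_mul] at hcard
  have hdd : d * d ≤ 4 := (Nat.pow_le_pow_iff_right hD1).mp hcard
  have hd1 : d ≠ 1 := by
    intro hd
    obtain ⟨r, hr, s, hs, hrs⟩ := hnc
    apply hrs
    refine comm_of_inj ?_ r hr s hs
    intro r hr v hv hrv
    have hc : Nat.card R = Nat.card V := by rw [hR, hE, hd, pow_one]
    let f : R → V := fun r => (r : AddMonoid.End V) v
    have hf : Function.Surjective f := by
      intro w
      obtain ⟨r, hr, hw⟩ := h v hv w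
      exact ⟨⟨r, hr⟩, hw⟩
    have hfb := (Nat.bijective_iff_surjective_and_card f).mpr ⟨hf, hc⟩
    have h1 : f ⟨r, hr⟩ = f 0 := by
      change r v = 0
      exact hrv
    exact congrArg Subtype.val (hfb.1 h1)
  have hd2 : d = 2 := by
    have : d < 3 := by
      by_contra hd3
      push Not at hd3
      have : 3 * 3 ≤ d * d := Nat.mul_le_mul hd3 hd3
      omega
    omega
  rw [hV, hd2]

/-- the span of `1, x, y, xy` over the commutant -/
def S (x y : AddMonoid.End V) : Set (AddMonoid.End V) :=
  {t | ∃ a b c d : Module.End R V, t = δ R a + δ R b * x + δ R c * y + δ R d * (x * y)}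

variable {R}

theorem S_mul (x y τ : AddMonoid.End V) (hx : x ∈ R) (hy : y ∈ R) (hx2 : x * x = -x - 1) (hy2 : y * y = -y - 1)
    (hτ : y * x = τ - x * y - x - y - 1) (hτc : ∀ r ∈ R, τ * r = r * τ) {s t : AddMonoid.End V}
    (hs : s ∈ S R x y) (ht : t ∈ S R x y) : s * t ∈ S R x y := by
  obtain ⟨T, rfl⟩ := δ_mem_range R hτc
  have hδ : ∀ (a : Module.End R V) {u : AddMonoid.End V}, u ∈ S R x y → δ R a * u ∈ S R x y := by
    rintro a _ ⟨b, c, d, e, rfl⟩
    exact ⟨a * b, a * c, a * d, a * e, by simp only [δ_mul, mul_add, mul_assoc]⟩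
  have hadd : ∀ {u v : AddMonoid.End V}, u ∈ S R x y → v ∈ S R x y → u + v ∈ S R x y := by
    rintro _ _ ⟨a, b, c, d, rfl⟩ ⟨a', b', c', d', rfl⟩
    exact ⟨a + a', b + b', c + c', d + d', by simp only [δ_add, add_mul]; abel⟩
  have cx : ∀ a : Module.End R V, x * δ R a = δ R a * x := fun a => (δ_comm R a hx).symm
  have cy : ∀ a : Module.End R V, y * δ R a = δ R a * y := fun a => (δ_comm R a hy).symm
  have hX : ∀ {u : AddMonoid.End V}, u ∈ S R x y → x * u ∈ S R x y := by
    rintro _ ⟨a, b, c, d, rfl⟩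
    refine ⟨-b, a + -b, -d, c + -d, ?_⟩
    have e1 : x * (δ R b * x) = δ R b * (x * x) := by rw [← mul_assoc, cx, mul_assoc]
    have e2 : x * (δ R c * y) = δ R c * (x * y) := by rw [← mul_assoc, cx, mul_assoc]
    have e3 : x * (δ R d * (x * y)) = δ R d * ((x * x) * y) := by rw [← mul_assoc, cx, mul_assoc, mul_assoc]
    rw [mul_add, mul_add, mul_add, e1, e2, e3, cx, hx2]
    simp only [δ_add, δ_neg]
    noncomm_ring
  have hY : ∀ {u : AddMonoid.End V}, u ∈ S R x y → y * u ∈ S R x y := by
    rintro _ ⟨a, b, c, d, rfl⟩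
    refine ⟨b * T + -b + -c + d, -b + d, a + -b + -c + d * T, -b, ?_⟩
    have e1 : y * (δ R b * x) = δ R b * (y * x) := by rw [← mul_assoc, cy, mul_assoc]
    have e2 : y * (δ R c * y) = δ R c * (y * y) := by rw [← mul_assoc, cy, mul_assoc]
    have e3 : y * (δ R d * (x * y)) = δ R d * ((y * x) * y) := by rw [← mul_assoc, cy, mul_assoc, mul_assoc]
    rw [mul_add, mul_add, mul_add, e1, e2, e3, cy, hτ, hy2]
    simp only [δ_add, δ_neg, δ_mul, sub_mul, add_mul, mul_sub, mul_add, mul_assoc, hy2]
    noncomm_ring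
  obtain ⟨a, b, c, d, rfl⟩ := hs
  rw [add_mul, add_mul, add_mul, mul_assoc, mul_assoc, mul_assoc, mul_assoc]
  exact hadd (hadd (hadd (hδ a ht) (hδ b (hX ht))) (hδ c (hY ht))) (hδ d (hX (hY ht)))

end B

end H74.Reg3
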