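import Cfsg.Agent.Lib.H74.Reg3
set_option autoImplicit false
set_option linter.unusedSectionVars false
open Cfsg

namespace H74.Reg4
open H74.FrobC H74.FC H74.Zass H74.Perf H74.NonSolv H74.NonSolv2 H74.NonSolv3
open H74.Reg2 H74.Reg3

def gx : SL5 := mk 0 1 4 4 (by decide)
def gy : SL5 := mk 0 4 1 4 (by decide)

theorem gx_order : orderOf gx = 3 := orderOf_mk _ _ _ _ _ (by decide)
theorem gy_order : orderOf gy = 3 := orderOf_mk _ _ _ _ _ (by decide)

theorem gen : Subgroup.closure {gx, gy} = (⊤ : Subgroup SL5) := by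
  apply H6.SmallIsoA.eq_top_zmod
  have hx : gx ∈ Subgroup.closure {gx, gy} := Subgroup.subset_closure (by simp)
  have hy : gy ∈ Subgroup.closure {gx, gy} := Subgroup.subset_closure (by simp)
  intro i j hij
  fin_cases i <;> fin_cases j
  · exact absurd rfl hij
  · have : (Matrix.SpecialLinearGroup.transvection hij 1 : SL5) = gx * gx * gy * (gx * gx * gy) := by
      revert hij; decide +kernel
    rw [this]
    exact Subgroup.mul_mem _ (Subgroup.mul_mem _ (Subgroup.mul_mem _ hx hx) hy) (Subgroup.mul_mem _ (Subgroup.mul_mem _ hx hx) hy)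
  · have : (Matrix.SpecialLinearGroup.transvection hij 1 : SL5) = gx * gy * gy * (gx * gy * gy) := by
      revert hij; decide +kernel
    rw [this]
    exact Subgroup.mul_mem _ (Subgroup.mul_mem _ (Subgroup.mul_mem _ hx hy) hy) (Subgroup.mul_mem _ (Subgroup.mul_mem _ hx hy) hy)
  · exact absurd rfl hij

section C
variable {V : Type*} [AddCommGroup V] [Finite V] [Nontrivial V] {H : Type*} [Group H] [Finite H] (j : H →* AddMonoid.End V)

theorem cubic (hfree : ∀ (h : H) (v : V), v ≠ 0 → j h v = v → h = 1) {h : H} (hh : orderOf h = 3) :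
    j h * j h = - j h - 1 := by
  apply AddMonoidHom.ext
  intro v
  have h1 : j h (j h (j h v)) = v := by
    change (j h * (j h * j h)) v = v
    rw [← map_mul, ← map_mul]
    have : h * (h * h) = 1 := by rw [← pow_three, ← hh]; exact pow_orderOf_eq_one h
    rw [this, map_one]; rfl
  have h2 : j h (j h v) + j h v + v = 0 := by
    by_contra hne
    have h3 := hfree h _ hne (by rw [map_add, map_add, h1]; abel)
    rw [h3, orderOf_one] at hh
    norm_num at hh
  change j h (j h v) = - j h v - v
  rw [sub_eq_add_neg, ← neg_add, eq_neg_iff_add_eq_zero, ← add_assoc]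
  exact h2

theorem core (hreg : ∀ v w : V, v ≠ 0 → w ≠ 0 → ∃ h, j h v = w)
    (hfree : ∀ (h : H) (v : V), v ≠ 0 → j h v = v → h = 1) (L : Subgroup H) [hLn : L.Normal] (e : L ≃* SL5) :
    ∃ q : ℕ, 1 < q ∧ Nat.card V = q ^ 2 ∧ ∀ M : Subgroup H, M ≤ Subgroup.centralizer (L : Set H) → Nat.card M ∣ q - 1 := by
  classical
  let R : Subring (AddMonoid.End V) := Subring.closure (j '' L)
  have hjR : ∀ l ∈ L, j l ∈ R := fun l hl => Subring.subset_closure ⟨l, hl, rfl⟩
  have hinj : ∀ (h : H), j h = 1 → h = 1 := by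
    intro h hh
    obtain ⟨v, hv⟩ := exists_ne (0 : V)
    exact hfree h v hv (by rw [hh]; rfl)
  have hN : ∀ h : H, ∀ r ∈ R, j h * r * j h⁻¹ ∈ R := by
    intro h r hr
    induction hr using Subring.closure_induction with
    | mem x hx =>
      obtain ⟨l, hl, rfl⟩ := hx
      rw [← map_mul, ← map_mul]
      exact hjR _ (hLn.conj_mem l hl h)
    | zero => rw [mul_zero, zero_mul]; exact R.zero_mem
    | one => rw [mul_one, ← map_mul, mul_inv_cancel, map_one]; exact R.one_mem
    | add x y _ _ h1 h2 => rw [mul_add, add_mul]; exact R.add_mem h1 h2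
    | neg x _ h1 => rw [mul_neg, neg_mul]; exact R.neg_mem h1
    | mul x y _ _ h1 h2 =>
      have : j h * (x * y) * j h⁻¹ = (j h * x * j h⁻¹) * (j h * y * j h⁻¹) := by
        have h3 : j h⁻¹ * j h = 1 := by rw [← map_mul, inv_mul_cancel, map_one]
        calc j h * (x * y) * j h⁻¹ = j h * x * (1 * y) * j h⁻¹ := by simp only [mul_assoc, one_mul]
          _ = j h * x * ((j h⁻¹ * j h) * y) * j h⁻¹ := by rw [h3]
          _ = _ := by simp only [mul_assoc]
      rw [this]
      exact R.mul_mem h1 h2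
  let x₀ : H := (e.symm gx : L)
  let y₀ : H := (e.symm gy : L)
  have hx₀ : orderOf x₀ = 3 := by rw [Subgroup.orderOf_coe, MulEquiv.orderOf_eq, gx_order]
  have hy₀ : orderOf y₀ = 3 := by rw [Subgroup.orderOf_coe, MulEquiv.orderOf_eq, gy_order]
  have hgen : ∀ l ∈ L, l ∈ Subgroup.closure {x₀, y₀} := by
    intro l hl
    have h1 : e ⟨l, hl⟩ ∈ Subgroup.closure {gx, gy} := by rw [gen]; exact Subgroup.mem_top _
    have h2 : (L.subtype.comp e.symm.toMonoidHom) (e ⟨l, hl⟩) ∈ (Subgroup.closure {gx, gy}).map (L.subtype.comp e.symm.toMonoidHom) :=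
      ⟨_, h1, rfl⟩
    rw [MonoidHom.map_closure, Set.image_pair] at h2
    have h3 : (L.subtype.comp e.symm.toMonoidHom) (e ⟨l, hl⟩) = l := by
      change ((e.symm (e ⟨l, hl⟩) : L) : H) = l
      rw [MulEquiv.symm_apply_apply]
    rw [h3] at h2
    exact h2
  have hxL : x₀ ∈ L := (e.symm gx).2
  have hyL : y₀ ∈ L := (e.symm gy).2
  have hnc0 : j x₀ * j y₀ ≠ j y₀ * j x₀ := by
    intro h
    rw [← map_mul, ← map_mul] at h
    have h1 : x₀ * y₀ * (y₀ * x₀)⁻¹ = 1 := by
      apply hinj
      rw [map_mul, h, ← map_mul, mul_inv_cancel, map_one]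
    rw [mul_inv_eq_one] at h1
    have h2 : e.symm gx * e.symm gy = e.symm gy * e.symm gx := Subtype.ext h1
    rw [← map_mul, ← map_mul] at h2
    have h3 := e.symm.injective h2
    exact absurd h3 (by decide +kernel)
  have hnc : ∃ r ∈ R, ∃ s ∈ R, r * s ≠ s * r := ⟨j x₀, hjR _ hxL, j y₀, hjR _ hyL, hnc0⟩
  have hcyc : ∀ v : V, v ≠ 0 → ∀ w, w ∈ cyc R v := fun v hv w => cyc_top hN hreg hnc hv w
  -- elements commuting with `L` commute with `R`
  have hcommR : ∀ t : AddMonoid.End V, (∀ l ∈ L, t * j l = j l * t) → ∀ r ∈ R, t * r = r * t := by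
    intro t ht r hr
    induction hr using Subring.closure_induction with
    | mem x hx =>
      obtain ⟨l, hl, rfl⟩ := hx
      exact ht l hl
    | zero => rw [mul_zero, zero_mul]
    | one => rw [mul_one, one_mul]
    | add x y _ _ h1 h2 => rw [mul_add, add_mul, h1, h2]
    | neg x _ h1 => rw [mul_neg, neg_mul, h1]
    | mul x y _ _ h1 h2 => rw [← mul_assoc, h1, mul_assoc, h2, mul_assoc]
  have hx2 := cubic j hfree hx₀
  have hy2 := cubic j hfree hy₀
  set x := j x₀ with hx
  set y := j y₀ with hy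
  let τ : AddMonoid.End V := y * x + x * y + x + y + 1
  have hτx : τ * x = x * τ := by
    change (y * x + x * y + x + y + 1) * x = x * (y * x + x * y + x + y + 1)
    simp only [mul_add, add_mul, mul_assoc, hx2]
    rw [← mul_assoc x x y, hx2]
    noncomm_ring
  have hτy : τ * y = y * τ := by
    change (y * x + x * y + x + y + 1) * y = y * (y * x + x * y + x + y + 1)
    simp only [mul_add, add_mul, mul_assoc, hy2]
    rw [← mul_assoc y y x, hy2]
    noncomm_ring
  have hτL : ∀ l ∈ L, τ * j l = j l * τ := by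
    intro l hl
    have h1 := hgen l hl
    clear hl
    induction h1 using Subgroup.closure_induction with
    | mem z hz =>
      rcases hz with rfl | rfl
      · exact hτx
      · exact hτy
    | one => rw [map_one, mul_one, one_mul]
    | mul a b _ _ h1 h2 => rw [map_mul, ← mul_assoc, h1, mul_assoc, h2, mul_assoc]
    | inv a _ h1 =>
      have h3 : j a * j a⁻¹ = 1 := by rw [← map_mul, mul_inv_cancel, map_one]
      have h4 : j a⁻¹ * j a = 1 := by rw [← map_mul, inv_mul_cancel, map_one]
      calc τ * j a⁻¹ = (j a⁻¹ * j a) * τ * j a⁻¹ := by rw [h4, one_mul]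
        _ = j a⁻¹ * (j a * τ) * j a⁻¹ := by rw [mul_assoc (j a⁻¹)]
        _ = j a⁻¹ * τ * (j a * j a⁻¹) := by rw [← h1]; simp only [mul_assoc]
        _ = j a⁻¹ * τ := by rw [h3, mul_one]
  have hτc := hcommR τ hτL
  have hτyx : y * x = τ - x * y - x - y - 1 := by
    change y * x = (y * x + x * y + x + y + 1) - x * y - x - y - 1
    abel
  have hxR : x ∈ R := hjR _ hxL
  have hyR : y ∈ R := hjR _ hyL
  have hSmul : ∀ {s t : AddMonoid.End V}, s ∈ S R x y → t ∈ S R x y → s * t ∈ S R x y := fun hs ht =>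
    S_mul x y τ hxR hyR hx2 hy2 hτyx hτc hs ht
  have hS1 : (1 : AddMonoid.End V) ∈ S R x y := ⟨1, 0, 0, 0, by simp only [δ_one, δ_zero]; noncomm_ring⟩
  let Sr : Subring (AddMonoid.End V) :=
    { carrier := S R x y
      mul_mem' := fun hs ht => hSmul hs ht
      one_mem' := hS1
      add_mem' := by
        rintro _ _ ⟨a, b, c, d, rfl⟩ ⟨a', b', c', d', rfl⟩
        exact ⟨a + a', b + b', c + c', d + d', by simp only [δ_add, add_mul]; abel⟩
      zero_mem' := ⟨0, 0, 0, 0, by simp only [δ_zero]; noncomm_ring⟩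
      neg_mem' := by
        rintro _ ⟨a, b, c, d, rfl⟩
        exact ⟨-a, -b, -c, -d, by simp only [δ_neg]; noncomm_ring⟩ }
  have hLS : ∀ l ∈ L, j l ∈ Sr := by
    intro l hl
    have h1 := hgen l hl
    clear hl
    induction h1 using Subgroup.closure_induction with
    | mem z hz =>
      rcases hz with rfl | rfl
      · exact ⟨0, 1, 0, 0, by simp only [δ_zero, δ_one]; rw [hx]; noncomm_ring⟩
      · exact ⟨0, 0, 1, 0, by simp only [δ_zero, δ_one]; rw [hy]; noncomm_ring⟩
    | one => rw [map_one]; exact Sr.one_mem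
    | mul a b _ _ h1 h2 => rw [map_mul]; exact Sr.mul_mem h1 h2
    | inv a _ h1 =>
      have : a⁻¹ = a ^ (orderOf a - 1) := by
        rw [inv_eq_iff_mul_eq_one, ← pow_succ', Nat.sub_add_cancel (orderOf_pos a), pow_orderOf_eq_one]
      rw [this, map_pow]
      exact Sr.pow_mem h1 _
  have hRS : R ≤ Sr := by
    rw [Subring.closure_le]
    rintro _ ⟨l, hl, rfl⟩
    exact hLS l hl
  have hcard : Nat.card R ≤ Nat.card (Module.End R V) ^ 4 := by
    have h1 : ∀ r : R, ∃ t : Fin 4 → Module.End R V,
        (r : AddMonoid.End V) = δ R (t 0) + δ R (t 1) * x + δ R (t 2) * y + δ R (t 3) * (x * y) := by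
      intro r
      obtain ⟨a, b, c, d, h⟩ := hRS r.2
      exact ⟨![a, b, c, d], h⟩
    choose f hf using h1
    have hfi : Function.Injective f := by
      intro r s hrs
      apply Subtype.ext
      rw [hf r, hf s, hrs]
    have h2 := Nat.card_le_card_of_injective f hfi
    rwa [Nat.card_fun, Nat.card_fin] at h2
  have hV := dim_two R hcyc hnc hcard
  have hs := simple R hcyc
  refine ⟨Nat.card (Module.End R V), Finite.one_lt_card, hV, ?_⟩
  intro M hM
  have hMd : ∀ m : M, ∃ d : Module.End R V, δ R d = j m := by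
    intro m
    apply δ_mem_range
    apply hcommR
    intro l hl
    rw [← map_mul, ← map_mul]
    congr 1
    exact (Subgroup.mem_centralizer_iff.mp (hM m.2) l hl).symm
  choose g hg using hMd
  have hδinj : ∀ a b : Module.End R V, δ R a = δ R b → a = b := by
    intro a b h
    apply LinearMap.ext
    intro v
    exact congrArg (fun t : AddMonoid.End V => t v) h
  let G : M →* Module.End R V :=
    { toFun := g
      map_one' := by
        apply hδinj
        rw [hg, δ_one, Subgroup.coe_one, map_one]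
      map_mul' := by
        intro a b
        apply hδinj
        rw [hg, δ_mul, hg, hg, Subgroup.coe_mul, map_mul] }
  have hGi : Function.Injective G.toHomUnits := by
    rw [injective_iff_map_eq_one]
    intro m hm
    have h1 : g m = 1 := congrArg Units.val hm
    have h2 := hg m
    rw [h1, δ_one] at h2
    exact Subtype.ext (hinj m h2.symm)
  have h1 : Nat.card M ∣ Nat.card (Module.End R V)ˣ := Subgroup.card_dvd_of_injective _ hGi
  rwa [Nat.card_units] at h1

end C

end H74.Reg4
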