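import Mathlib
import Cfsg.Agent.Lib.H3.QuatSylow
import Cfsg.Agent.Lib.H74.Semi
import Cfsg.Agent.S3742

set_option autoImplicit false
set_option linter.unusedSectionVars false

/-! Recognition of `SL(2,3)` and `SL(2,3) × C₅` by a quaternion subgroup and absence of subgroups of index two. -/

namespace H74.SL23Rec

open Subgroup

theorem sl23_of_card {T : Type*} [Group T] [Finite T] (hT : Nat.card T = 24) (Q : Subgroup T)
    (e : Q ≃* QuaternionGroup 2) (hno : ¬ ∃ N : Subgroup T, N.Normal ∧ N.index = 2) :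
    Nonempty (T ≃* Matrix.SpecialLinearGroup (Fin 2) (ZMod 3)) := by
  have : Fact (Nat.Prime 2) := ⟨Nat.prime_two⟩
  have hQ8 : Nat.card Q = 8 := by
    rw [Nat.card_congr e.toEquiv, Nat.card_eq_fintype_card, QuaternionGroup.card]
  have hQp : IsPGroup 2 Q := IsPGroup.of_card (n := 3) (by rw [hQ8]; norm_num)
  have hQi : Q.index = 3 := by
    have := Q.card_mul_index
    rw [hQ8, hT] at this
    omega
  have hQi2 : ¬ 2 ∣ Q.index := by rw [hQi]; decide
  have hmain := H3.QuatSylow.main (hQp.toSylow hQi2) 1 ⟨e⟩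
  rcases hmain with ⟨P, N, hN, hc⟩ | ⟨H, K, hK, ⟨f⟩⟩
  · exfalso
    have hP : Nat.card (P : Subgroup T) = 8 := by
      have h1 := Nat.card_congr (Sylow.equiv P (hQp.toSylow hQi2)).toEquiv
      exact h1.trans hQ8
    have h3 := hc.symm.index_eq_card
    obtain ⟨M, -, hM⟩ := H5.IndexTwo.exists_index_two_of_normal N 2 (by rw [h3, hP]; norm_num)
    exact hno ⟨M, Subgroup.normal_of_index_eq_two hM, hM⟩
  · have h24 : Nat.card (Matrix.SpecialLinearGroup (Fin 2) (ZMod 3)) = 24 := H3.SL23.card_S
    have h1 : Nat.card (H ⧸ K.subgroupOf H) = 24 := (Nat.card_congr f.toEquiv).trans h24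
    have h2 : Nat.card (K.subgroupOf H) * Nat.card (H ⧸ K.subgroupOf H) = Nat.card H :=
      (K.subgroupOf H).card_mul_index
    have h3 : Nat.card H ∣ 24 := by rw [← hT]; exact Subgroup.card_subgroup_dvd_card H
    have h4 : Nat.card H ≤ 24 := Nat.le_of_dvd (by norm_num) h3
    have h5 : 0 < Nat.card (K.subgroupOf H) := Nat.card_pos
    rw [h1] at h2
    have h6 : Nat.card (K.subgroupOf H) = 1 := by nlinarith
    have h7 : Nat.card H = 24 := by rw [h6] at h2; omega
    have hHt : H = ⊤ := Subgroup.eq_top_of_card_eq H (by rw [h7, hT])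
    have hKb : K.subgroupOf H = ⊥ := Subgroup.eq_bot_of_card_eq _ h6
    have g1 : H ≃* T := by rw [hHt]; exact Subgroup.topEquiv
    have g2 : H ⧸ K.subgroupOf H ≃* H :=
      (QuotientGroup.quotientMulEquivOfEq hKb).trans QuotientGroup.quotientBot
    exact ⟨(g1.symm.trans g2.symm).trans f⟩

theorem one_of_dvd_four {x : ℕ} (h1 : ¬ 2 ∣ x) (h3 : x ∣ 4) : x = 1 := by
  have h4 : x ≤ 4 := Nat.le_of_dvd (by norm_num) h3
  interval_cases x <;> simp_all

theorem sl23_prod {H : Type*} [Group H] [Finite H] (hH : Nat.card H = 120) (Q : Subgroup H) [hQn : Q.Normal]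
    (e : Q ≃* QuaternionGroup 2) (hC : Nat.card (Subgroup.centralizer (Q : Set H)) = 10)
    (hno : ¬ ∃ N : Subgroup H, N.Normal ∧ N.index = 2) :
    Nonempty (H ≃* Matrix.SpecialLinearGroup (Fin 2) (ZMod 3) × Multiplicative (ZMod 5)) := by
  have i5 : Fact (Nat.Prime 5) := ⟨by norm_num⟩
  have hQ8 : Nat.card Q = 8 := by
    rw [Nat.card_congr e.toEquiv, Nat.card_eq_fintype_card, QuaternionGroup.card]
  set C := Subgroup.centralizer (Q : Set H) with hCdef
  have hCn : C.Normal := inferInstance
  -- a Sylow 5-subgroup of C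
  obtain ⟨S⟩ : Nonempty (Sylow 5 C) := inferInstance
  have hS5 : Nat.card (S : Subgroup C) = 5 := by
    obtain ⟨k, hk⟩ := IsPGroup.iff_card.mp S.2
    have h1 : 5 ∣ Nat.card (S : Subgroup C) := S.dvd_card_of_dvd_card (by rw [hC]; norm_num)
    have h2 : Nat.card (S : Subgroup C) ∣ 10 := by rw [← hC]; exact Subgroup.card_subgroup_dvd_card _
    rw [hk] at h1 h2 ⊢
    have h3 : k ≠ 0 := by rintro rfl; norm_num at h1
    have h4 : k < 2 := by
      by_contra h
      have h5 : 5 ^ 2 ∣ 10 := (pow_dvd_pow 5 (by omega : 2 ≤ k)).trans h2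
      norm_num at h5
    have h5 : k = 1 := by omega
    rw [h5, pow_one]
  have hSi : (S : Subgroup C).index = 2 := by
    have := (S : Subgroup C).card_mul_index
    rw [hS5, hC] at this
    omega
  have hSn : (S : Subgroup C).Normal := Subgroup.normal_of_index_eq_two hSi
  have hSc : (S : Subgroup C).Characteristic := Sylow.characteristic_of_normal S hSn
  set Z := (S : Subgroup C).map C.subtype with hZdef
  have hZn : Z.Normal := inferInstance
  have hZ5 : Nat.card Z = 5 := by
    rw [hZdef, Subgroup.card_map_of_injective C.subtype_injective, hS5]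
  have hZi : Z.index = 24 := by
    have := Z.card_mul_index
    rw [hZ5, hH] at this
    omega
  have hZcyc : IsCyclic Z := isCyclic_of_prime_card hZ5
  have hZcomm : ∀ a b : MulAut Z, a * b = b * a := by
    intro a b
    apply (IsCyclic.mulAutMulEquiv Z).injective
    rw [map_mul, map_mul, mul_comm]
  -- Z is central
  have hZcen : ∀ h : H, ∀ z ∈ Z, h * z = z * h := by
    have h1 : ¬ 2 ∣ Nat.card (MulAut.conjNormal (H := Z) : H →* MulAut Z).range := by
      intro h2
      exact hno (H74.Semi.index_two_of_hom _ h2 hZcomm)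
    have h4 : Nat.card (MulAut Z) = 4 := by
      rw [IsCyclic.card_mulAut, hZ5]
      decide
    have h2 : Nat.card (MulAut.conjNormal (H := Z) : H →* MulAut Z).range = 1 := by
      have h3 := Subgroup.card_subgroup_dvd_card (MulAut.conjNormal (H := Z) : H →* MulAut Z).range
      rw [h4] at h3
      exact one_of_dvd_four h1 h3
    have h3 := Subgroup.eq_bot_of_card_eq _ h2
    intro h z hz
    have h5 : (MulAut.conjNormal (H := Z) : H →* MulAut Z) h = 1 := by
      have : (MulAut.conjNormal (H := Z) : H →* MulAut Z) h ∈ (MulAut.conjNormal (H := Z) : H →* MulAut Z).range := ⟨h, rfl⟩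
      rw [h3] at this
      exact this
    have h6 := congrArg (fun f : MulAut Z => ((f ⟨z, hz⟩ : Z) : H)) h5
    have h7 : h * z * h⁻¹ = z := h6
    rw [mul_inv_eq_iff_eq_mul] at h7
    exact h7
  -- complement
  have hZp : IsPGroup 5 Z := IsPGroup.of_card (n := 1) (by rw [hZ5]; norm_num)
  have hZi5 : ¬ 5 ∣ Z.index := by rw [hZi]; decide
  have hcomp := MonoidHom.ker_transferSylow_isComplement' (hZp.toSylow hZi5) (by
    intro x _
    rw [Subgroup.mem_centralizer_iff]
    intro z hz
    exact (hZcen x z hz).symm)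
  set T := (MonoidHom.transferSylow (hZp.toSylow hZi5) (by
    intro x _
    rw [Subgroup.mem_centralizer_iff]
    intro z hz
    exact (hZcen x z hz).symm)).ker with hTdef
  have hTn : T.Normal := inferInstance
  have hTZ : IsComplement' T Z := hcomp
  have hT24 : Nat.card T = 24 := by
    have h1 := hTZ.card_mul_card
    rw [hZ5, hH] at h1
    omega
  have hTi : T.index = 5 := by
    have := T.card_mul_index
    rw [hT24, hH] at this
    omega
  let φ : T × Z →* H := MonoidHom.noncommCoprod T.subtype Z.subtype (fun t z => (hZcen t z z.2))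
  have hφ : Function.Bijective φ := by
    have := hTZ
    exact this
  let Φ : T × Z ≃* H := MulEquiv.ofBijective φ hφ
  have hQT : Q ≤ T := by
    intro x hx
    have h1 : x ^ 8 = 1 := by
      have : (⟨x, hx⟩ : Q) ^ 8 = 1 := by rw [← hQ8]; exact pow_card_eq_one'
      exact congrArg Subtype.val this
    have h2 : x ^ 5 ∈ T := by rw [← hTi]; exact Subgroup.pow_index_mem T x
    have h3 : x = (x ^ 5) ^ 5 * (x ^ 8) ^ (-3 : ℤ) := by
      rw [← zpow_natCast, ← zpow_natCast, ← zpow_natCast, ← zpow_mul, ← zpow_mul, ← zpow_add]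
      norm_num
    rw [h3, h1, one_zpow, mul_one]
    exact T.pow_mem h2 5
  have hT : Nonempty (T ≃* Matrix.SpecialLinearGroup (Fin 2) (ZMod 3)) := by
    apply sl23_of_card hT24 (Q.subgroupOf T) ((Subgroup.subgroupOfEquivOfLe hQT).trans e)
    rintro ⟨N, hN, hNi⟩
    apply hno
    refine ⟨N.comap ((MonoidHom.fst T Z).comp Φ.symm.toMonoidHom), inferInstance, ?_⟩
    rw [Subgroup.index_comap_of_surjective _ ?_, hNi]
    intro t
    exact ⟨Φ (t, 1), by
      change (Φ.symm (Φ (t, 1))).1 = t
      rw [Φ.symm_apply_apply]⟩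
  obtain ⟨f⟩ := hT
  have g : Z ≃* Multiplicative (ZMod 5) := mulEquivOfPrimeCardEq (p := 5) hZ5 (by
    rw [Nat.card_congr Multiplicative.toAdd, Nat.card_zmod])
  exact ⟨Φ.symm.trans (MulEquiv.prodCongr f g)⟩

end H74.SL23Rec
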