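import Cfsg.Agent.Lib.H74.NonSolv3
set_option autoImplicit false
open Cfsg Equiv

namespace H74.Six

/-- a Z-group has no two distinct commuting involutions -/
theorem invol_eq {X : Type*} [Group X] [Finite X] (hX : IsZGroup X) {x y : X} (hx : x ^ 2 = 1) (hy : y ^ 2 = 1)
    (hx1 : x ≠ 1) (hy1 : y ≠ 1) (hxy : x * y = y * x) : x = y := by
  have hc : ∀ a ∈ ({x, y} : Set X), ∀ b ∈ ({x, y} : Set X), a * b = b * a := by
    rintro a (rfl | rfl) b (rfl | rfl)
    · rfl
    · exact hxy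
    · exact hxy.symm
    · rfl
  have hcomm := Subgroup.isMulCommutative_closure hc
  let A := Subgroup.closure ({x, y} : Set X)
  have hA : ∀ a b : A, a * b = b * a := fun a b => hcomm.is_comm.comm a b
  have hxA : x ∈ A := Subgroup.subset_closure (by simp)
  have hyA : y ∈ A := Subgroup.subset_closure (by simp)
  have hnil : Group.IsNilpotent A := by
    let _ : CommGroup A := { (inferInstance : Group A) with mul_comm := hA }
    infer_instance
  have hcyc : IsCyclic A := inferInstance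
  classical
  have : Fintype A := Fintype.ofFinite A
  have h1 := IsCyclic.card_pow_eq_one_le (α := A) (n := 2) (by norm_num)
  by_contra hne
  have h2 : ({1, ⟨x, hxA⟩, ⟨y, hyA⟩} : Finset A) ⊆ Finset.univ.filter (fun a : A => a ^ 2 = 1) := by
    intro a ha
    simp only [Finset.mem_insert, Finset.mem_singleton] at ha
    rw [Finset.mem_filter]
    refine ⟨Finset.mem_univ _, ?_⟩
    rcases ha with rfl | rfl | rfl
    · exact one_pow 2
    · exact Subtype.ext hx
    · exact Subtype.ext hy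
  have h3 := Finset.card_le_card h2
  have h4 : ({1, ⟨x, hxA⟩, ⟨y, hyA⟩} : Finset A).card = 3 := by
    rw [Finset.card_eq_three]
    refine ⟨1, ⟨x, hxA⟩, ⟨y, hyA⟩, ?_, ?_, ?_, rfl⟩
    · intro h; exact hx1 (congrArg Subtype.val h).symm
    · intro h; exact hy1 (congrArg Subtype.val h).symm
    · intro h; exact hne (congrArg Subtype.val h)
  omega

theorem v4_not_z : ¬ IsZGroup (DihedralGroup 2) := by
  intro h
  have := invol_eq h (x := DihedralGroup.sr 0) (y := DihedralGroup.sr 1) (by decide) (by decide) (by decide) (by decide) (by decide)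
  exact absurd this (by decide)

/-- every nontrivial normal subgroup of `Perm (Fin 4)` contains the Klein four-group -/
theorem s4_dec : ∀ k : Perm (Fin 4), k ≠ 1 → (∃ g h : Perm (Fin 4), g * k * g⁻¹ * (h * k⁻¹ * h⁻¹) = swap 0 1 * swap 2 3) ∧
    (∃ g h : Perm (Fin 4), g * k * g⁻¹ * (h * k⁻¹ * h⁻¹) = swap 0 2 * swap 1 3) := by
  decide +kernel

theorem a4_dec : ∀ k : Perm (Fin 4), Perm.sign k = 1 → k ≠ 1 →
    (∃ g h : Perm (Fin 4), Perm.sign g = 1 ∧ Perm.sign h = 1 ∧ g * k * g⁻¹ * (h * k⁻¹ * h⁻¹) = swap 0 1 * swap 2 3) ∧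
    (∃ g h : Perm (Fin 4), Perm.sign g = 1 ∧ Perm.sign h = 1 ∧ g * k * g⁻¹ * (h * k⁻¹ * h⁻¹) = swap 0 2 * swap 1 3) := by
  decide +kernel

theorem two_inv {K Y : Type*} [Group K] [Finite K] [Group Y] (hz : IsZGroup K) (ι : K →* Y) (hι : Function.Injective ι)
    {a b : Y} (ha : ∃ x, ι x = a) (hb : ∃ y, ι y = b) (ha2 : a ^ 2 = 1) (hb2 : b ^ 2 = 1) (ha1 : a ≠ 1) (hb1 : b ≠ 1)
    (hab : a * b = b * a) (hne : a ≠ b) : False := by
  obtain ⟨x, rfl⟩ := ha
  obtain ⟨y, rfl⟩ := hb
  apply hne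
  congr 1
  apply invol_eq hz
  · apply hι; rw [map_pow, ha2, map_one]
  · apply hι; rw [map_pow, hb2, map_one]
  · rintro rfl; exact ha1 (map_one _)
  · rintro rfl; exact hb1 (map_one _)
  · apply hι; rw [map_mul, map_mul, hab]

theorem mem_of_conj {X : Type*} [Group X] (K : Subgroup X) [hK : K.Normal] {k g h a : X} (hk : k ∈ K)
    (e : g * k * g⁻¹ * (h * k⁻¹ * h⁻¹) = a) : a ∈ K := by
  rw [← e]
  exact K.mul_mem (hK.conj_mem k hk g) (hK.conj_mem _ (K.inv_mem hk) h)

theorem exists_ne_one {X : Type*} [Group X] {K : Subgroup X} (h : K ≠ ⊥) : ∃ k ∈ K, k ≠ 1 := by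
  obtain ⟨k, hk⟩ := (Subgroup.ne_bot_iff_exists_ne_one).mp h
  exact ⟨k, k.2, fun h => hk (Subtype.ext h)⟩

theorem s4_normal (K : Subgroup (Perm (Fin 4))) [K.Normal] (hz : IsZGroup K) : K = ⊥ := by
  by_contra hne
  obtain ⟨k, hk, hk1⟩ := exists_ne_one hne
  obtain ⟨⟨g, h, e⟩, g', h', e'⟩ := s4_dec k hk1
  have h1 := mem_of_conj K hk e
  have h2 := mem_of_conj K hk e'
  exact two_inv hz K.subtype K.subtype_injective (a := swap 0 1 * swap 2 3) (b := swap 0 2 * swap 1 3) ⟨⟨_, h1⟩, rfl⟩ ⟨⟨_, h2⟩, rfl⟩ (by decide) (by decide) (by decide) (by decide)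
    (by decide) (by decide)

theorem a4_normal (K : Subgroup (alternatingGroup (Fin 4))) [K.Normal] (hz : IsZGroup K) : K = ⊥ := by
  by_contra hne
  obtain ⟨k, hk, hk1⟩ := exists_ne_one hne
  obtain ⟨⟨g, h, hg, hh, e⟩, g', h', hg', hh', e'⟩ := a4_dec k k.2 (fun h => hk1 (Subtype.ext h))
  have m1 : Perm.sign (swap 0 1 * swap 2 3 : Perm (Fin 4)) = 1 := by decide
  have m2 : Perm.sign (swap 0 2 * swap 1 3 : Perm (Fin 4)) = 1 := by decide
  have h1 : (⟨swap 0 1 * swap 2 3, m1⟩ : alternatingGroup (Fin 4)) ∈ K :=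
    mem_of_conj K (g := ⟨g, hg⟩) (h := ⟨h, hh⟩) hk (Subtype.ext e)
  have h2 : (⟨swap 0 2 * swap 1 3, m2⟩ : alternatingGroup (Fin 4)) ∈ K :=
    mem_of_conj K (g := ⟨g', hg'⟩) (h := ⟨h', hh'⟩) hk (Subtype.ext e')
  exact two_inv hz ((alternatingGroup (Fin 4)).subtype.comp K.subtype)
    ((alternatingGroup (Fin 4)).subtype_injective.comp K.subtype_injective) (a := swap 0 1 * swap 2 3) (b := swap 0 2 * swap 1 3)
    ⟨⟨_, h1⟩, rfl⟩ ⟨⟨_, h2⟩, rfl⟩ (by decide) (by decide) (by decide) (by decide) (by decide) (by decide)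

theorem a5_not_z : ¬ IsZGroup (alternatingGroup (Fin 5)) := by
  intro hz
  have m1 : Perm.sign (swap 0 1 * swap 2 3 : Perm (Fin 5)) = 1 := by decide
  have m2 : Perm.sign (swap 0 2 * swap 1 3 : Perm (Fin 5)) = 1 := by decide
  exact two_inv hz (alternatingGroup (Fin 5)).subtype (alternatingGroup (Fin 5)).subtype_injective
    (a := swap 0 1 * swap 2 3) (b := swap 0 2 * swap 1 3)
    ⟨⟨_, m1⟩, rfl⟩ ⟨⟨_, m2⟩, rfl⟩ (by decide) (by decide) (by decide) (by decide) (by decide) (by decide)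

theorem a5_normal (K : Subgroup (alternatingGroup (Fin 5))) [hK : K.Normal] (hz : IsZGroup K) : K = ⊥ := by
  rcases (inferInstance : IsSimpleGroup (alternatingGroup (Fin 5))).eq_bot_or_eq_top_of_normal K hK with h | h
  · exact h
  · exfalso
    apply a5_not_z
    subst h
    exact IsZGroup.of_injective (f := (Subgroup.topEquiv.symm : alternatingGroup (Fin 5) ≃* _).toMonoidHom)
      (Subgroup.topEquiv.symm : alternatingGroup (Fin 5) ≃* _).injective

theorem s5_normal (K : Subgroup (Perm (Fin 5))) [hK : K.Normal] (hz : IsZGroup K) : K = ⊥ := by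
  have h1 : K.subgroupOf (alternatingGroup (Fin 5)) = ⊥ := by
    apply a5_normal
    exact IsZGroup.of_injective (f := (MonoidHom.mk' (fun x : K.subgroupOf (alternatingGroup (Fin 5)) =>
      (⟨((x : alternatingGroup (Fin 5)) : Perm (Fin 5)), Subgroup.mem_subgroupOf.mp x.2⟩ : K)) (fun _ _ => rfl)))
      (fun x y h => Subtype.ext (Subtype.ext (congrArg (fun t : K => (t : Perm (Fin 5))) h)))
  rw [eq_bot_iff]
  intro k hk
  rw [Subgroup.mem_bot]
  apply H40.AutAlt.injective_conjNormal (α := Fin 5) (by simp)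
  rw [map_one]
  apply MulEquiv.ext
  intro a
  apply Subtype.ext
  rw [MulAut.conjNormal_apply, MulAut.one_apply]
  -- the commutator lies in the intersection
  have h2 : k * a * k⁻¹ * (a : Perm (Fin 5))⁻¹ ∈ K := by
    have : k * a * k⁻¹ * (a : Perm (Fin 5))⁻¹ = k * (a * k⁻¹ * (a : Perm (Fin 5))⁻¹) := by group
    rw [this]
    exact K.mul_mem hk (hK.conj_mem _ (K.inv_mem hk) _)
  have h3 : k * a * k⁻¹ * (a : Perm (Fin 5))⁻¹ ∈ alternatingGroup (Fin 5) := by
    apply Subgroup.mul_mem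
    · exact (inferInstance : (alternatingGroup (Fin 5)).Normal).conj_mem _ a.2 k
    · exact Subgroup.inv_mem _ a.2
  have h4 : (⟨_, h3⟩ : alternatingGroup (Fin 5)) ∈ K.subgroupOf (alternatingGroup (Fin 5)) := h2
  rw [h1, Subgroup.mem_bot] at h4
  have h5 := congrArg Subtype.val h4
  exact mul_inv_eq_one.mp h5

/-- the four large quotient types -/
def Big {G : Type*} [Group G] (N : Subgroup G) : Prop :=
  (∃ f : G →* alternatingGroup (Fin 4), Function.Surjective f ∧ f.ker = N) ∨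
  (∃ f : G →* Equiv.Perm (Fin 4), Function.Surjective f ∧ f.ker = N) ∨
  (∃ f : G →* alternatingGroup (Fin 5), Function.Surjective f ∧ f.ker = N) ∨
  (∃ f : G →* Equiv.Perm (Fin 5), Function.Surjective f ∧ f.ker = N)

theorem le_of_hom {G X : Type*} [Group G] [Finite G] [Group X] (f : G →* X) (hf : Function.Surjective f)
    (hX : ∀ K : Subgroup X, K.Normal → IsZGroup K → K = ⊥) (N : Subgroup G) (hN : N.Normal) (hz : IsZGroup N) : N ≤ f.ker := by
  have h1 : N.map f = ⊥ := by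
    apply hX _ (hN.map f hf)
    exact IsZGroup.of_surjective (f := f.subgroupMap N) (f.subgroupMap_surjective N)
  rwa [Subgroup.map_eq_bot_iff] at h1

theorem big_le {G : Type*} [Group G] [Finite G] {N' : Subgroup G} (hb : Big N') (N : Subgroup G) (hN : N.Normal)
    (hz : IsZGroup N) : N ≤ N' := by
  rcases hb with ⟨f, hf, rfl⟩ | ⟨f, hf, rfl⟩ | ⟨f, hf, rfl⟩ | ⟨f, hf, rfl⟩
  · exact le_of_hom f hf (fun K _ hK => a4_normal K hK) N hN hz
  · exact le_of_hom f hf (fun K _ hK => s4_normal K hK) N hN hz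
  · exact le_of_hom f hf (fun K _ hK => a5_normal K hK) N hN hz
  · exact le_of_hom f hf (fun K _ hK => s5_normal K hK) N hN hz

theorem index_ker_of_surj {G X : Type*} [Group G] [Group X] (f : G →* X) (hf : Function.Surjective f) :
    f.ker.index = Nat.card X := by
  rw [Subgroup.index_ker, MonoidHom.range_eq_top.mpr hf, Subgroup.card_top]

theorem big_index {G : Type*} [Group G] {N' : Subgroup G} (hb : Big N') : 12 ≤ N'.index := by
  rcases hb with ⟨f, hf, rfl⟩ | ⟨f, hf, rfl⟩ | ⟨f, hf, rfl⟩ | ⟨f, hf, rfl⟩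
  · rw [index_ker_of_surj f hf, nat_card_alternatingGroup, Nat.card_eq_fintype_card, Fintype.card_fin]; decide
  · rw [index_ker_of_surj f hf, Nat.card_perm, Nat.card_eq_fintype_card, Fintype.card_fin]; decide
  · rw [index_ker_of_surj f hf, nat_card_alternatingGroup, Nat.card_eq_fintype_card, Fintype.card_fin]; decide
  · rw [index_ker_of_surj f hf, Nat.card_perm, Nat.card_eq_fintype_card, Fintype.card_fin]; decide

end H74.Six
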