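import Cfsg.Agent.Lib.H74.Six
set_option autoImplicit false
open Cfsg Equiv

namespace H74.Six
open H74.FrobC H74.FC

theorem zgroup_of_sylow {G : Type*} [Group G] [Finite G] (h : IsFC G) (P : Sylow 2 G) (hP : IsCyclic P) : IsZGroup G := by
  have : Fact (Nat.Prime 2) := ⟨Nat.prime_two⟩
  constructor
  intro p hp P'
  have : Fact p.Prime := ⟨hp⟩
  rcases pgroup h p P' P'.isPGroup' with h1 | ⟨rfl, -⟩
  · exact h1
  · exact (isCyclic_of_surjective _ (Sylow.equiv P P').surjective)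

/-- elements of a generalized quaternion group -/
theorem quat_cases {n : ℕ} [NeZero n] (x : QuaternionGroup n) :
    ∃ k : ℕ, x = QuaternionGroup.a 1 ^ k ∨ x = QuaternionGroup.xa 0 * QuaternionGroup.a 1 ^ k := by
  have : NeZero (2 * n) := ⟨by have := NeZero.ne n; omega⟩
  rcases x with i | i
  · refine ⟨i.val, Or.inl ?_⟩
    rw [QuaternionGroup.a_one_pow, ZMod.natCast_zmod_val]
  · refine ⟨i.val, Or.inr ?_⟩
    rw [QuaternionGroup.a_one_pow, ZMod.natCast_zmod_val, QuaternionGroup.xa_mul_a, zero_add]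

theorem v4_ker_le {G : Type*} [Group G] [Finite G] (h : IsFC G) (f₁ f₂ : G →* DihedralGroup 2) (h1 : Function.Surjective f₁) :
    f₁.ker ≤ f₂.ker := by
  have hp2 : Fact (Nat.Prime 2) := ⟨Nat.prime_two⟩
  let P : Sylow 2 G := default
  rcases pgroup h 2 P P.isPGroup' with hc | ⟨-, n, ⟨e⟩⟩
  · exfalso
    have := zgroup_of_sylow h P hc
    exact v4_not_z (IsZGroup.of_surjective h1)
  have hexp : ∀ x : DihedralGroup 2, x * x = 1 := by decide
  let F : G →* DihedralGroup 2 × DihedralGroup 2 := f₁.prod f₂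
  have hR : IsPGroup 2 F.range := by
    have h2 : IsPGroup 2 (DihedralGroup 2 × DihedralGroup 2) := by
      intro x
      refine ⟨1, ?_⟩
      rw [pow_one, sq]
      exact Prod.ext (hexp _) (hexp _)
    exact h2.to_subgroup _
  have hPF : ∀ g : G, ∃ p : P, F p = F g := by
    intro g
    let P' := P.mapSurjective F.rangeRestrict_surjective
    have h3 : (P' : Subgroup F.range) = ⊤ := by
      have := P'.is_maximal' (Q := ⊤) (hR.to_subgroup ⊤ |>.to_le le_rfl) le_top
      exact this.symm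
    have h4 : F.rangeRestrict g ∈ (P' : Subgroup F.range) := by rw [h3]; exact Subgroup.mem_top _
    obtain ⟨p, hp, hpg⟩ := h4
    exact ⟨⟨p, hp⟩, congrArg Subtype.val hpg⟩
  let α := F (e.symm (QuaternionGroup.a 1) : P)
  let β := F (e.symm (QuaternionGroup.xa 0) : P)
  let c : Fin 4 → DihedralGroup 2 × DihedralGroup 2 := ![1, α, β, β * α]
  have hα : ∀ k : ℕ, α ^ k = 1 ∨ α ^ k = α := by
    intro k
    induction k with
    | zero => left; exact pow_zero α
    | succ k ih =>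
      rw [pow_succ]
      rcases ih with h | h
      · right; rw [h, one_mul]
      · left; rw [h]; exact Prod.ext (hexp _) (hexp _)
  have hall : ∀ g : G, ∃ i, F g = c i := by
    intro g
    obtain ⟨p, hp⟩ := hPF g
    rw [← hp]
    obtain ⟨x, rfl⟩ := e.symm.surjective p
    have : NeZero (2 ^ n) := ⟨by positivity⟩
    obtain ⟨k, hk | hk⟩ := quat_cases x
    · have h5 : F (e.symm x : P) = α ^ k := by rw [hk, map_pow, Subgroup.coe_pow, map_pow]
      rw [h5]
      rcases hα k with h | h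
      · exact ⟨0, h⟩
      · exact ⟨1, h⟩
    · have h5 : F (e.symm x : P) = β * α ^ k := by rw [hk, map_mul, map_pow, Subgroup.coe_mul, Subgroup.coe_pow, map_mul, map_pow]
      rw [h5]
      rcases hα k with h | h
      · exact ⟨2, by rw [h, mul_one]; rfl⟩
      · exact ⟨3, by rw [h]; rfl⟩
  have hsurj : Function.Surjective (fun i => (c i).1) := by
    intro y
    obtain ⟨g, hg⟩ := h1 y
    obtain ⟨i, hi⟩ := hall g
    refine ⟨i, ?_⟩
    change (c i).1 = y
    rw [← hi]
    exact hg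
  have hinj : Function.Injective (fun i => (c i).1) := by
    have := (Fintype.bijective_iff_surjective_and_card (fun i => (c i).1)).mpr ⟨hsurj, by rfl⟩
    exact this.1
  intro g hg
  obtain ⟨i, hi⟩ := hall g
  have h6 : (c i).1 = (c 0).1 := by
    rw [← hi]
    exact hg
  have h7 : i = 0 := hinj h6
  rw [h7] at hi
  exact congrArg Prod.snd hi

theorem unique_of_conds {G : Type*} [Group G] [Finite G] (h : IsFC G) (N₁ N₂ : Subgroup G) (hn₁ : N₁.Normal) (hn₂ : N₂.Normal)
    (hz₁ : IsZGroup N₁) (hz₂ : IsZGroup N₂)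
    (h₁ : N₁ = ⊤ ∨ (∃ f : G →* DihedralGroup 2, Function.Surjective f ∧ f.ker = N₁) ∨ Big N₁)
    (h₂ : N₂ = ⊤ ∨ (∃ f : G →* DihedralGroup 2, Function.Surjective f ∧ f.ker = N₂) ∨ Big N₂) : N₁ = N₂ := by
  have htop : ∀ N N' : Subgroup G, N = ⊤ → N'.Normal → IsZGroup N →
      (N' = ⊤ ∨ (∃ f : G →* DihedralGroup 2, Function.Surjective f ∧ f.ker = N') ∨ Big N') → N = N' := by
    intro N N' hN hn' hz h'
    subst hN
    have hG : IsZGroup G := IsZGroup.of_injective (f := (Subgroup.topEquiv.symm : G ≃* _).toMonoidHom)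
      (Subgroup.topEquiv.symm : G ≃* _).injective
    rcases h' with h' | ⟨f, hf, -⟩ | hb
    · exact h'.symm
    · exact absurd (IsZGroup.of_surjective hf) v4_not_z
    · exact le_antisymm (big_le hb ⊤ inferInstance hz) le_top
  have hmix : ∀ N N' : Subgroup G, N.Normal → IsZGroup N → (∃ f : G →* DihedralGroup 2, Function.Surjective f ∧ f.ker = N) →
      Big N' → False := by
    rintro N N' hn hz ⟨f, hf, rfl⟩ hb
    have h3 := big_le hb f.ker hn hz
    have h4 := Subgroup.index_dvd_of_le h3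
    rw [index_ker_of_surj f hf] at h4
    have h5 := big_index hb
    have h6 : Nat.card (DihedralGroup 2) = 4 := by rw [Nat.card_eq_fintype_card]; rfl
    rw [h6] at h4
    have := Nat.le_of_dvd (by norm_num) h4
    omega
  rcases h₁ with h₁ | h₁ | h₁
  · exact htop N₁ N₂ h₁ hn₂ hz₁ h₂
  · rcases h₂ with h₂ | h₂ | h₂
    · exact (htop N₂ N₁ h₂ hn₁ hz₂ (Or.inr (Or.inl h₁))).symm
    · obtain ⟨f₁, hf₁, rfl⟩ := h₁
      obtain ⟨f₂, hf₂, rfl⟩ := h₂
      exact le_antisymm (v4_ker_le h f₁ f₂ hf₁) (v4_ker_le h f₂ f₁ hf₂)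
    · exact (hmix N₁ N₂ hn₁ hz₁ h₁ h₂).elim
  · rcases h₂ with h₂ | h₂ | h₂
    · exact (htop N₂ N₁ h₂ hn₁ hz₂ (Or.inr (Or.inr h₁))).symm
    · exact (hmix N₂ N₁ hn₂ hz₂ h₂ h₁).elim
    · exact le_antisymm (big_le h₂ N₁ hn₁ hz₁) (big_le h₁ N₂ hn₂ hz₂)

end H74.Six
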