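import Cfsg.Agent.Lib.H74.Six2
import Cfsg.Agent.Lib.H1.Solv
import Cfsg.Agent.Lib.H1.Cores
import Cfsg.Agent.Lib.H87.AutTwo
import Cfsg.Agent.S3742
set_option autoImplicit false
open Cfsg Equiv

namespace H74.Six
open H74.FrobC H74.FC

/-- the quotient of a generalized quaternion group by its derived group -/
def psi (m : ℕ) : QuaternionGroup (2 * m) →* DihedralGroup 2 where
  toFun x := match x with
    | QuaternionGroup.a i => DihedralGroup.r (ZMod.castHom (by exact Dvd.intro _ rfl : 2 ∣ 2 * (2 * m)) (ZMod 2) i)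
    | QuaternionGroup.xa i => DihedralGroup.sr (ZMod.castHom (by exact Dvd.intro _ rfl : 2 ∣ 2 * (2 * m)) (ZMod 2) i)
  map_one' := by
    change DihedralGroup.r (ZMod.castHom _ (ZMod 2) 0) = 1
    rw [map_zero]; rfl
  map_mul' := by
    have h0 : ∀ h : 2 ∣ 2 * (2 * m), ZMod.castHom h (ZMod 2) ((2 * m : ℕ) : ZMod (2 * (2 * m))) = 0 := by
      intro h
      rw [map_natCast, ZMod.natCast_eq_zero_iff]
      exact Dvd.intro _ rfl
    rintro (i | i) (j | j)
    · simp only [QuaternionGroup.a_mul_a, map_add, DihedralGroup.r_mul_r]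
    · simp only [QuaternionGroup.a_mul_xa, map_sub, DihedralGroup.r_mul_sr]
    · simp only [QuaternionGroup.xa_mul_a, map_add, DihedralGroup.sr_mul_r]
    · simp only [QuaternionGroup.xa_mul_xa, map_add, map_sub, DihedralGroup.sr_mul_sr, h0, zero_add]

theorem psi_surj (m : ℕ) : Function.Surjective (psi m) := by
  rintro (i | i)
  · obtain ⟨j, hj⟩ := ZMod.castHom_surjective (by exact Dvd.intro _ rfl : 2 ∣ 2 * (2 * m)) i
    exact ⟨QuaternionGroup.a j, congrArg DihedralGroup.r hj⟩
  · obtain ⟨j, hj⟩ := ZMod.castHom_surjective (by exact Dvd.intro _ rfl : 2 ∣ 2 * (2 * m)) i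
    exact ⟨QuaternionGroup.xa j, congrArg DihedralGroup.sr hj⟩

theorem psi_ker (m : ℕ) [NeZero m] {x : QuaternionGroup (2 * m)} (hx : psi m x = 1) : x ∈ Subgroup.zpowers (QuaternionGroup.a 1 : QuaternionGroup (2 * m)) := by
  have : NeZero (2 * (2 * m)) := ⟨by have := NeZero.ne m; omega⟩
  rcases x with i | i
  · refine ⟨(i.val : ℤ), ?_⟩
    change (QuaternionGroup.a 1) ^ ((i.val : ℕ) : ℤ) = _
    rw [zpow_natCast, QuaternionGroup.a_one_pow, ZMod.natCast_zmod_val]
  · exact absurd hx (by intro h; cases h)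

/-- the quotient by a normal subgroup of odd order is a 2-group -/
theorem case_two_group {G : Type*} [Group G] [Finite G] (h : IsFC G) (K : Subgroup G) [K.Normal] (hK : (Nat.card K).Coprime 2)
    (hG : IsPGroup 2 (G ⧸ K)) (P : Sylow 2 G) (hP : ¬ IsCyclic P) :
    ∃ f : G →* DihedralGroup 2, Function.Surjective f ∧ IsZGroup f.ker := by
  have hp2 : Fact (Nat.Prime 2) := ⟨Nat.prime_two⟩
  rcases pgroup h 2 P P.isPGroup' with hc | ⟨-, n, ⟨e⟩⟩
  · exact absurd hc hP
  have hn : n ≠ 0 := by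
    rintro rfl
    apply hP
    have : IsCyclic (QuaternionGroup (2 ^ 0)) := by
      rw [pow_zero]
      exact QuaternionGroup.quaternionGroup_one_isCyclic
    exact isCyclic_of_surjective e.symm e.symm.surjective
  obtain ⟨k, rfl⟩ : ∃ k, n = k + 1 := ⟨n - 1, by omega⟩
  have hq : 2 ^ (k + 1) = 2 * 2 ^ k := by rw [pow_succ]; ring
  rw [hq] at e
  -- 2-elements of `K` are trivial
  have hKP : ∀ (Q : Subgroup G), IsPGroup 2 Q → ∀ x ∈ Q, x ∈ K → x = 1 := by
    intro Q hQ x hxQ hxK
    obtain ⟨m, hm⟩ := hQ ⟨x, hxQ⟩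
    have h1 : x ^ (2 ^ m) = 1 := congrArg Subtype.val hm
    have h2 : orderOf x ∣ 2 ^ m := orderOf_dvd_of_pow_eq_one h1
    have h3 : orderOf x ∣ Nat.card K := by
      have := orderOf_dvd_natCard (⟨x, hxK⟩ : K)
      rwa [Subgroup.orderOf_mk] at this
    have h4 := Nat.Coprime.coprime_dvd_left h3 hK
    have h5 := Nat.Coprime.coprime_dvd_right h2 (Nat.Coprime.pow_right m h4)
    rwa [Nat.coprime_self, orderOf_eq_one_iff] at h5
  let j : P →* G ⧸ K := (QuotientGroup.mk' K).comp (P : Subgroup G).subtype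
  have hj : Function.Injective j := by
    rw [injective_iff_map_eq_one]
    intro x hx
    have h1 : (x : G) ∈ K := (QuotientGroup.eq_one_iff (x : G)).mp hx
    exact Subtype.ext (hKP P P.isPGroup' x x.2 h1)
  have hjs : Function.Surjective j := by
    let P' := P.mapSurjective (QuotientGroup.mk'_surjective K)
    have h3 : (P' : Subgroup (G ⧸ K)) = ⊤ := by
      have := P'.is_maximal' (Q := ⊤) (hG.to_subgroup ⊤) le_top
      exact this.symm
    intro g
    have h4 : g ∈ (P' : Subgroup (G ⧸ K)) := by rw [h3]; exact Subgroup.mem_top _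
    obtain ⟨p, hp, hpg⟩ := h4
    exact ⟨⟨p, hp⟩, hpg⟩
  let ej : P ≃* G ⧸ K := MulEquiv.ofBijective j ⟨hj, hjs⟩
  let f₀ : G →* QuaternionGroup (2 * 2 ^ k) := (e.toMonoidHom.comp ej.symm.toMonoidHom).comp (QuotientGroup.mk' K)
  have hf₀ : Function.Surjective f₀ := (e.surjective.comp ej.symm.surjective).comp (QuotientGroup.mk'_surjective K)
  have hf₀k : ∀ g, f₀ g = 1 → g ∈ K := by
    intro g hg
    have h1 : e (ej.symm (QuotientGroup.mk' K g)) = 1 := hg
    rw [map_eq_one_iff e e.injective, map_eq_one_iff ej.symm ej.symm.injective] at h1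
    exact (QuotientGroup.eq_one_iff g).mp h1
  refine ⟨(psi (2 ^ k)).comp f₀, (psi_surj _).comp hf₀, ?_⟩
  constructor
  intro p hp P'
  have hpf : Fact p.Prime := ⟨hp⟩
  have hQ : IsPGroup p ((P' : Subgroup _).map ((psi (2 ^ k)).comp f₀).ker.subtype) := P'.isPGroup'.map _
  have e' := (P' : Subgroup _).equivMapOfInjective ((psi (2 ^ k)).comp f₀).ker.subtype (Subgroup.subtype_injective _)
  rcases pgroup h p _ hQ with h1 | ⟨rfl, -⟩
  · exact isCyclic_of_surjective e'.symm e'.symm.surjective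
  · have : NeZero (2 ^ k) := ⟨by positivity⟩
    let r : P' →* Subgroup.zpowers (QuaternionGroup.a 1 : QuaternionGroup (2 * 2 ^ k)) :=
      { toFun := fun x => ⟨f₀ x, psi_ker _ (x : ((psi (2 ^ k)).comp f₀).ker).2⟩
        map_one' := Subtype.ext (map_one f₀)
        map_mul' := fun x y => Subtype.ext (map_mul f₀ _ _) }
    have hr : Function.Injective r := by
      rw [injective_iff_map_eq_one]
      intro x hx
      have h2 : f₀ ((x : ((psi (2 ^ k)).comp f₀).ker) : G) = 1 := congrArg Subtype.val hx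
      have h3 := hKP _ hQ _ ⟨x, x.2, rfl⟩ (hf₀k _ h2)
      exact Subtype.ext (Subtype.ext h3)
    exact isCyclic_of_injective r hr

end H74.Six
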