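import Cfsg.Agent.Lib.H74.Six3
import Cfsg.Agent.Lib.H74.Fitting
set_option autoImplicit false
open Cfsg Equiv

namespace H74.Six
open H74.FrobC H74.FC

theorem isPGroup_mulAut_cyclic {T : Type*} [Group T] [Finite T] (hT : IsPGroup 2 T) [hc : IsCyclic T] : IsPGroup 2 (MulAut T) := by
  have hp2 : Fact (Nat.Prime 2) := ⟨Nat.prime_two⟩
  obtain ⟨k, hk⟩ := IsPGroup.iff_card.mp hT
  have e := IsCyclic.mulAutMulEquiv T
  have : NeZero (Nat.card T) := ⟨Nat.card_pos.ne'⟩
  have h1 : Nat.card (MulAut T) = 2 ^ (k - 1) := by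
    rw [Nat.card_congr e.toEquiv, Nat.card_eq_fintype_card, ZMod.card_units_eq_totient, hk]
    rcases Nat.eq_zero_or_pos k with rfl | hk0
    · simp
    · rw [Nat.totient_prime_pow Nat.prime_two hk0]; simp
  exact IsPGroup.of_card h1

theorem conj_ker {X : Type*} [Group X] (T : Subgroup X) [T.Normal] :
    (MulAut.conjNormal (H := T) : X →* MulAut T).ker = Subgroup.centralizer (T : Set X) := by
  ext h
  rw [MonoidHom.mem_ker, Subgroup.mem_centralizer_iff]
  constructor
  · intro hh q hq
    have h2 := congrArg (fun f : MulAut T => ((f ⟨q, hq⟩ : T) : X)) hh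
    have h3 : h * q * h⁻¹ = q := h2
    rw [mul_inv_eq_iff_eq_mul] at h3
    exact h3.symm
  · intro hh
    ext q
    have h3 := hh q q.2
    rw [MulAut.conjNormal_apply, mul_inv_eq_iff_eq_mul, ← h3]
    rfl

theorem two_group_of_aut {X : Type*} [Group X] [Finite X] (T : Subgroup X) [T.Normal] (hT : IsPGroup 2 T)
    (hC : Subgroup.centralizer (T : Set X) ≤ T) (hA : IsPGroup 2 (MulAut T)) : IsPGroup 2 X := by
  have hp2 : Fact (Nat.Prime 2) := ⟨Nat.prime_two⟩
  have h1 := conj_ker T
  have h2 : IsPGroup 2 (MulAut.conjNormal (H := T) : X →* MulAut T).ker := by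
    rw [h1]; exact hT.to_le hC
  have h3 : IsPGroup 2 (MulAut.conjNormal (H := T) : X →* MulAut T).range := hA.to_subgroup _
  obtain ⟨a, ha⟩ := IsPGroup.iff_card.mp h2
  obtain ⟨b, hb⟩ := IsPGroup.iff_card.mp h3
  apply IsPGroup.of_card (n := a + b)
  rw [← (MulAut.conjNormal (H := T) : X →* MulAut T).ker.card_mul_index, Subgroup.index_ker, ha, hb, pow_add]

/-- the structure of the solvable Frobenius complements with noncyclic Sylow 2-subgroups -/
theorem exists_solvable_aux {G : Type*} [Group G] [Finite G] (h : IsFC G) (hs : Group.IsSolvable G) (P : Sylow 2 G) (hP : ¬ IsCyclic P)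
    (K : Subgroup G) [K.Normal] (hKc : (Nat.card K).Coprime 2) (hO : pPrimeCore 2 (G ⧸ K) = ⊥) :
    ∃ N : Subgroup G, N.Normal ∧ IsZGroup N ∧ ((∃ f : G →* DihedralGroup 2, Function.Surjective f ∧ f.ker = N) ∨ Big N) := by
  have hp2 : Fact (Nat.Prime 2) := ⟨Nat.prime_two⟩
  by_cases h2g : IsPGroup 2 (G ⧸ K)
  · obtain ⟨f, hf, hz⟩ := case_two_group h K hKc h2g P hP
    exact ⟨f.ker, inferInstance, hz, Or.inl ⟨f, hf, rfl⟩⟩
  have hC := H1.Solv.centralizer_pCore_le (G := G ⧸ K) inferInstance 2 hO
  have hTp : IsPGroup 2 (pCore 2 (G ⧸ K)) := H1.Cores.isPGroup_pCore 2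
  have hTn : (pCore 2 (G ⧸ K)).Normal := H74.Fitting.pCore_normal 2
  have hTP := H1.Cores.pCore_le_sylow (P.mapSurjective (QuotientGroup.mk'_surjective K))
  have hTmax : ∀ N : Subgroup (G ⧸ K), N.Normal → IsPGroup 2 N → N ≤ pCore 2 (G ⧸ K) := fun N hN hNp => H1.Cores.le_pCore hN hNp
  generalize pCore 2 (G ⧸ K) = T at *
  -- 2-elements of `K` are trivial
  have hKP : ∀ (Q : Subgroup G), IsPGroup 2 Q → ∀ x ∈ Q, x ∈ K → x = 1 := by
    intro Q hQ x hxQ hxK
    obtain ⟨m, hm⟩ := hQ ⟨x, hxQ⟩
    have h1 : x ^ (2 ^ m) = 1 := congrArg Subtype.val hm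
    have h2 : orderOf x ∣ 2 ^ m := orderOf_dvd_of_pow_eq_one h1
    have h3 : orderOf x ∣ Nat.card K := by
      have := orderOf_dvd_natCard (⟨x, hxK⟩ : K)
      rwa [Subgroup.orderOf_mk] at this
    have h4 := Nat.Coprime.coprime_dvd_left h3 hKc
    have h5 := Nat.Coprime.coprime_dvd_right h2 (Nat.Coprime.pow_right m h4)
    rwa [Nat.coprime_self, orderOf_eq_one_iff] at h5
  -- lift of `T`
  let T' : Subgroup G := P ⊓ T.comap (QuotientGroup.mk' K)
  have hT'p : IsPGroup 2 T' := P.isPGroup'.to_le inf_le_left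
  let r : T' →* T :=
    { toFun := fun x => ⟨QuotientGroup.mk' K x, x.2.2⟩
      map_one' := Subtype.ext (map_one _)
      map_mul' := fun x y => Subtype.ext (map_mul _ _ _) }
  have hr : Function.Bijective r := by
    constructor
    · rw [injective_iff_map_eq_one]
      intro x hx
      have h1 : (x : G) ∈ K := (QuotientGroup.eq_one_iff (x : G)).mp (congrArg Subtype.val hx)
      exact Subtype.ext (hKP _ hT'p x x.2 h1)
    · rintro ⟨t, ht⟩
      obtain ⟨p, hp, hpt⟩ := hTP ht
      have h1 : p ∈ T.comap (QuotientGroup.mk' K) := by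
        rw [Subgroup.mem_comap]
        exact (congrArg (fun z => z ∈ T) hpt).mpr ht
      exact ⟨⟨p, Subgroup.mem_inf.mpr ⟨hp, h1⟩⟩, Subtype.ext hpt⟩
  let er : T' ≃* T := MulEquiv.ofBijective r hr
  have hnA : ¬ IsPGroup 2 (MulAut T) := fun hA => h2g (two_group_of_aut T hTp hC hA)
  have hTQ : Nonempty (T ≃* QuaternionGroup 2) := by
    rcases pgroup h 2 T' hT'p with hc | ⟨-, n, ⟨e⟩⟩
    · exfalso
      have : IsCyclic T := isCyclic_of_surjective er er.surjective
      exact hnA (isPGroup_mulAut_cyclic hTp)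
    · have e2 : T ≃* QuaternionGroup (2 ^ n) := er.symm.trans e
      have hn : n = 1 := by
        by_contra hn1
        rcases Nat.eq_zero_or_pos n with rfl | hn0
        · have h3 : IsCyclic (QuaternionGroup (2 ^ 0)) := by
            rw [pow_zero]
            exact QuaternionGroup.quaternionGroup_one_isCyclic
          have : IsCyclic T := isCyclic_of_surjective e2.symm e2.symm.surjective
          exact hnA (isPGroup_mulAut_cyclic hTp)
        · have h3 := H87.AutTwo.isPGroup_aut_quaternion n (by omega)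
          exact hnA (h3.of_equiv (MulAut.congr e2).symm)
      subst hn
      exact ⟨e2⟩
  obtain ⟨eT⟩ := hTQ
  -- the action on `T`
  obtain ⟨eS⟩ := Cfsg.Agent.S3742.result
  let c : G ⧸ K →* Perm (Fin 4) :=
    (eS.toMonoidHom.comp (MulAut.congr eT).toMonoidHom).comp (MulAut.conjNormal (H := T) : G ⧸ K →* MulAut T)
  have hcker : c.ker = Subgroup.centralizer (T : Set (G ⧸ K)) := by
    rw [← conj_ker T]
    ext x
    rw [MonoidHom.mem_ker, MonoidHom.mem_ker]
    change eS (MulAut.congr eT (MulAut.conjNormal x)) = 1 ↔ _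
    rw [map_eq_one_iff eS eS.injective, map_eq_one_iff _ (MulAut.congr eT).injective]
  have hsq : ∀ x ∈ Subgroup.centralizer (T : Set (G ⧸ K)), x ^ 2 = 1 := by
    intro x hx
    have hxT := hC hx
    have h1 : ∀ y : QuaternionGroup 2, eT ⟨x, hxT⟩ * y = y * eT ⟨x, hxT⟩ := by
      intro y
      obtain ⟨t, rfl⟩ := eT.surjective y
      rw [← map_mul, ← map_mul]
      congr 1
      exact Subtype.ext (Subgroup.mem_centralizer_iff.mp hx t t.2).symm
    have h2 : ∀ q : QuaternionGroup 2, (∀ y, q * y = y * q) → q ^ 2 = 1 := by decide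
    have h3 := h2 _ h1
    rw [← map_pow, map_eq_one_iff eT eT.injective] at h3
    exact congrArg Subtype.val h3
  let N : Subgroup G := (c.comp (QuotientGroup.mk' K)).ker
  have hNz : IsZGroup N := by
    apply H74.NonSolv2.zgroup_of_no_four h
    intro y hy hy4
    have h1 : QuotientGroup.mk' K y ∈ Subgroup.centralizer (T : Set (G ⧸ K)) := by
      rw [← hcker]; exact hy
    have h2 := hsq _ h1
    rw [← map_pow] at h2
    have h3 : y ^ 2 ∈ K := (QuotientGroup.eq_one_iff (y ^ 2)).mp h2
    have h4 : IsPGroup 2 (Subgroup.zpowers y) := by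
      apply IsPGroup.of_card (n := 2)
      rw [Nat.card_zpowers, hy4]; norm_num
    have h5 := hKP _ h4 (y ^ 2) (Subgroup.pow_mem _ (Subgroup.mem_zpowers y) 2) h3
    have h6 := orderOf_dvd_of_pow_eq_one h5
    rw [hy4] at h6
    norm_num at h6
  refine ⟨N, inferInstance, hNz, Or.inr ?_⟩
  -- the order of the range
  have hrange : (c.comp (QuotientGroup.mk' K)).range = c.range := by
    rw [MonoidHom.range_comp, MonoidHom.range_eq_top.mpr (QuotientGroup.mk'_surjective K), ← MonoidHom.range_eq_map]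
  have hcard24 : Nat.card (Perm (Fin 4)) = 24 := by
    rw [Nat.card_perm, Nat.card_eq_fintype_card, Fintype.card_fin]; rfl
  have h24 : Nat.card c.range ∣ 24 := by
    rw [← hcard24]; exact Subgroup.card_subgroup_dvd_card _
  -- divisible by 4
  have h4 : 4 ∣ Nat.card c.range := by
    have h1 : Nat.card (T.map c) * Nat.card (c.comp T.subtype).ker = Nat.card T := by
      have h2 := (c.comp T.subtype).ker.card_mul_index
      rw [Subgroup.index_ker, MonoidHom.range_comp, Subgroup.range_subtype] at h2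
      rw [mul_comm]; exact h2
    have hT8 : Nat.card T = 8 := by
      rw [Nat.card_congr eT.toEquiv, Nat.card_eq_fintype_card]; rfl
    have hk2 : Nat.card (c.comp T.subtype).ker ≤ 2 := by
      -- the kernel embeds in the centre
      have h3 : ∀ x : (c.comp T.subtype).ker, eT (x : T) ∈ ({1, QuaternionGroup.a 2} : Finset (QuaternionGroup 2)) := by
        intro x
        have h5 : ((x : T) : G ⧸ K) ∈ Subgroup.centralizer (T : Set (G ⧸ K)) := by
          rw [← hcker]; exact x.2
        have h6 := hsq _ h5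
        have h7 : (eT (x : T)) ^ 2 = 1 := by
          rw [← map_pow, map_eq_one_iff eT eT.injective]
          exact Subtype.ext h6
        have h8 : ∀ q : QuaternionGroup 2, q ^ 2 = 1 → q ∈ ({1, QuaternionGroup.a 2} : Finset (QuaternionGroup 2)) := by decide
        exact h8 _ h7
      have h4 := Nat.card_le_card_of_injective (fun x : (c.comp T.subtype).ker =>
        (⟨eT (x : T), h3 x⟩ : ({1, QuaternionGroup.a 2} : Finset (QuaternionGroup 2)))) (by
          intro x y hxy
          have := congrArg Subtype.val hxy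
          exact Subtype.ext (eT.injective this))
      have h5 : Nat.card ({1, QuaternionGroup.a 2} : Finset (QuaternionGroup 2)) = 2 := by
        rw [Nat.card_eq_fintype_card, Fintype.card_coe]; decide
      rwa [h5] at h4
    have hk0 : 0 < Nat.card (c.comp T.subtype).ker := Nat.card_pos
    have h5 : 4 ∣ Nat.card (T.map c) := by
      rw [hT8] at h1
      interval_cases (Nat.card (c.comp T.subtype).ker)
      · omega
      · omega
    exact h5.trans (Subgroup.card_dvd_of_le (Subgroup.map_le_range c T))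
  have h3 : 3 ∣ Nat.card c.range := by
    by_contra h3
    apply h2g
    have hr8 : IsPGroup 2 c.range := by
      have h5 : Nat.card c.range ∣ 8 := by
        have : Nat.Coprime (Nat.card c.range) 3 := ((Nat.Prime.coprime_iff_not_dvd Nat.prime_three).mpr h3).symm
        exact Nat.Coprime.dvd_of_dvd_mul_right this (by norm_num; exact h24)
      obtain ⟨k, -, hk⟩ := (Nat.dvd_prime_pow Nat.prime_two).mp (by norm_num; exact h5 : Nat.card c.range ∣ 2 ^ 3)
      exact IsPGroup.of_card hk
    have hk : IsPGroup 2 c.ker := by rw [hcker]; exact hTp.to_le hC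
    obtain ⟨a, ha⟩ := IsPGroup.iff_card.mp hk
    obtain ⟨b, hb⟩ := IsPGroup.iff_card.mp hr8
    apply IsPGroup.of_card (n := a + b)
    rw [← c.ker.card_mul_index, Subgroup.index_ker, ha, hb, pow_add]
  have h12 : 12 ∣ Nat.card c.range := Nat.Coprime.mul_dvd_of_dvd_of_dvd (by norm_num) h4 h3
  have hidx := c.range.card_mul_index
  rw [hcard24] at hidx
  obtain ⟨t, ht⟩ := h12
  have ht2 : t * c.range.index = 2 := by
    rw [ht] at hidx
    have : 12 * (t * c.range.index) = 12 * 2 := by rw [← mul_assoc, hidx]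
    exact Nat.eq_of_mul_eq_mul_left (by norm_num) this
  have hdv : c.range.index ∣ 2 := ⟨t, by rw [← ht2, mul_comm]⟩
  rcases (Nat.dvd_prime Nat.prime_two).mp hdv with hi | hi
  · -- everything
    right; left
    refine ⟨c.comp (QuotientGroup.mk' K), ?_, rfl⟩
    rw [← MonoidHom.range_eq_top, hrange]
    exact Subgroup.index_eq_one.mp hi
  · -- the alternating group
    left
    have hA : c.range = alternatingGroup (Fin 4) := Equiv.Perm.eq_alternatingGroup_of_index_eq_two hi
    have hmem : ∀ g, (c.comp (QuotientGroup.mk' K)) g ∈ alternatingGroup (Fin 4) := by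
      intro g
      rw [← hA, ← hrange]; exact ⟨g, rfl⟩
    refine ⟨(c.comp (QuotientGroup.mk' K)).codRestrict _ hmem, ?_, ?_⟩
    · rintro ⟨σ, hσ⟩
      rw [← hA, ← hrange] at hσ
      obtain ⟨g, hg⟩ := hσ
      exact ⟨g, Subtype.ext hg⟩
    · rw [MonoidHom.ker_codRestrict]

theorem exists_solvable {G : Type*} [Group G] [Finite G] (h : IsFC G) (hs : Group.IsSolvable G) (P : Sylow 2 G) (hP : ¬ IsCyclic P) :
    ∃ N : Subgroup G, N.Normal ∧ IsZGroup N ∧ ((∃ f : G →* DihedralGroup 2, Function.Surjective f ∧ f.ker = N) ∨ Big N) := by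
  have hKn : (pPrimeCore 2 G).Normal := by
    have := H1.Cores.pPrimeCore_characteristic (G := G) 2
    exact Subgroup.normal_of_characteristic _
  exact exists_solvable_aux h hs P hP (pPrimeCore 2 G) (H1.Cores.coprime_card_pPrimeCore (G := G) 2)
    (H1.Cores.pPrimeCore_quotient_pPrimeCore (G := G) 2)

end H74.Six
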