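import Mathlib
import Cfsg.Agent.Lib.H74.SL23Rec
import Cfsg.Agent.Lib.H15.Q8Lin2
import Cfsg.Agent.Lib.H15.Q8Norm
import Cfsg.Agent.S0685

set_option autoImplicit false
set_option linter.unusedSectionVars false

/-! Solvable linear groups regular on nonzero vectors. -/

namespace H74.SolvReg

open Subgroup

variable {p : ℕ} [Fact p.Prime] {V : Type*} [AddCommGroup V] [Module (ZMod p) V]

theorem cyc_of_comm [Finite V] [Nontrivial V] (H : Subgroup (V ≃ₗ[ZMod p] V))
    (hfree : ∀ (h : H) (v : V), v ≠ 0 → (h : V ≃ₗ[ZMod p] V) v = v → h = 1) (P : Subgroup H)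
    (hP : ∀ a ∈ P, ∀ b ∈ P, a * b = b * a) : IsCyclic P := by
  have : Finite (V ≃ₗ[ZMod p] V) :=
    Finite.of_injective (fun e : V ≃ₗ[ZMod p] V => (e : V → V)) DFunLike.coe_injective
  exact H15.LinFpf.cyclic_of_comm (K := Multiplicative V) (fun a b => mul_comm a b) (H15.LinFpf.lin H)
    (H15.LinFpf.lin_fpf hfree) P (Or.inl ⟨⟨fun a b => Subtype.ext (hP a a.2 b b.2)⟩⟩)

/-- semilinear case -/
theorem index_two_semi [Finite V] [Nontrivial V] (H : Subgroup (V ≃ₗ[ZMod p] V))
    (hfree : ∀ (h : H) (v : V), v ≠ 0 → (h : V ≃ₗ[ZMod p] V) v = v → h = 1)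
    (heven : 2 ∣ Nat.card H) {F : Type*} [Field F] [Finite F] (s : H →* RingAut F)
    (hs : ∀ a ∈ s.ker, ∀ b ∈ s.ker, a * b = b * a) : ∃ N : Subgroup H, N.Normal ∧ N.index = 2 := by
  have : Fact (Nat.Prime 2) := ⟨Nat.prime_two⟩
  have : Finite (V ≃ₗ[ZMod p] V) :=
    Finite.of_injective (fun e : V ≃ₗ[ZMod p] V => (e : V → V)) DFunLike.coe_injective
  by_cases h2 : 2 ∣ Nat.card s.range
  · exact H74.Semi.index_two_of_hom s h2 H16.OddLin2.ringAut_comm
  obtain ⟨P⟩ : Nonempty (Sylow 2 H) := inferInstance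
  have hPk : (P : Subgroup H) ≤ s.ker := by
    intro x hx
    rw [MonoidHom.mem_ker]
    obtain ⟨k, hk⟩ := P.2 ⟨x, hx⟩
    have hk' : x ^ 2 ^ k = 1 := congrArg Subtype.val hk
    have hfr : Finite s.range := Finite.of_surjective _ s.rangeRestrict_surjective
    have h3 : (⟨s x, x, rfl⟩ : s.range) ^ Nat.card s.range = 1 := pow_card_eq_one'
    have h4 : s x ^ Nat.card s.range = 1 := congrArg Subtype.val h3
    have h5 : s x ^ 2 ^ k = 1 := by rw [← map_pow, hk', map_one]
    have h6 : orderOf (s x) ∣ Nat.gcd (Nat.card s.range) (2 ^ k) :=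
      Nat.dvd_gcd (orderOf_dvd_of_pow_eq_one h4) (orderOf_dvd_of_pow_eq_one h5)
    have h7 : Nat.Coprime (Nat.card s.range) (2 ^ k) :=
      Nat.Coprime.pow_right k ((Nat.prime_two.coprime_iff_not_dvd.2 h2).symm)
    rw [h7.gcd_eq_one] at h6
    exact orderOf_eq_one_iff.1 (Nat.dvd_one.1 h6)
  have hcyc : IsCyclic (P : Subgroup H) := cyc_of_comm H hfree P (fun a ha b hb => hs a (hPk ha) b (hPk hb))
  obtain ⟨N, hN⟩ := H5.IndexTwo.exists_index_two_of_cyclic_sylow (even_iff_two_dvd.2 heven) P hcyc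
  exact ⟨N, Subgroup.normal_of_index_eq_two hN, hN⟩

theorem q8_center : ∀ x : QuaternionGroup 2, (∀ y, x * y = y * x) → x = 1 ∨ x = QuaternionGroup.a 2 := by decide

theorem twelve_of {r : ℕ} (h1 : r ∣ 12) (h2 : 4 ∣ r) (h3 : r ≠ 4) : r = 12 := by
  have : r ≤ 12 := Nat.le_of_dvd (by norm_num) h1
  interval_cases r <;> simp_all

/-- with a normal quaternion subgroup and no index two subgroup: the index of the centraliser is 12 or not divisible -/
theorem card_centralizer {H : Type*} [Group H] [Finite H] (Q : Subgroup H) [hQ : Q.Normal] (e : Q ≃* QuaternionGroup 2)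
    (hno : ¬ ∃ N : Subgroup H, N.Normal ∧ N.index = 2) :
    Nat.card H = 12 * Nat.card (Subgroup.centralizer (Q : Set H)) := by
  classical
  obtain ⟨e4⟩ := Cfsg.Agent.S3742.result
  have hker : (MulAut.conjNormal (H := Q) : H →* MulAut Q).ker = Subgroup.centralizer (Q : Set H) := by
    ext h
    rw [MonoidHom.mem_ker, Subgroup.mem_centralizer_iff]
    constructor
    · intro hh q hq
      have h2 := congrArg (fun f : MulAut Q => ((f ⟨q, hq⟩ : Q) : H)) hh
      have h3 : h * q * h⁻¹ = q := h2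
      rw [mul_inv_eq_iff_eq_mul] at h3
      exact h3.symm
    · intro hh
      ext q
      have h3 := hh q q.2
      rw [MulAut.conjNormal_apply, mul_inv_eq_iff_eq_mul, ← h3]
      rfl
  obtain ⟨g, hg⟩ : ∃ g : H →* Equiv.Perm (Fin 4), g.ker = Subgroup.centralizer (Q : Set H) := by
    refine ⟨(e4.toMonoidHom.comp (MulAut.congr e).toMonoidHom).comp (MulAut.conjNormal (H := Q)), ?_⟩
    rw [← hker]
    ext h
    rw [MonoidHom.mem_ker, MonoidHom.mem_ker]
    constructor
    · intro hh
      have h1 : e4 (MulAut.congr e (MulAut.conjNormal h)) = 1 := hh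
      rw [map_eq_one_iff _ e4.injective, map_eq_one_iff _ (MulAut.congr e).injective] at h1
      exact h1
    · intro hh
      change e4 (MulAut.congr e (MulAut.conjNormal h)) = 1
      rw [hh, map_one, map_one]
  -- image in the alternating group
  have halt : ∀ h : H, Equiv.Perm.sign (g h) = 1 := by
    intro h
    by_contra hne
    apply hno
    refine ⟨((Equiv.Perm.sign (α := Fin 4)).comp g).ker, inferInstance, ?_⟩
    have hsurj : Function.Surjective ((Equiv.Perm.sign (α := Fin 4)).comp g) := by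
      intro u
      rcases Int.units_eq_one_or u with rfl | rfl
      · exact ⟨1, map_one _⟩
      · exact ⟨h, (Int.units_eq_one_or _).resolve_left hne⟩
    rw [Subgroup.index_ker, MonoidHom.range_eq_top.2 hsurj, Subgroup.card_top, Nat.card_eq_fintype_card]
    rfl
  have hr12 : Nat.card g.range ∣ 12 := by
    have h1 : g.range ≤ alternatingGroup (Fin 4) := by
      rintro _ ⟨h, rfl⟩
      exact Equiv.Perm.mem_alternatingGroup.2 (halt h)
    have h2 := Subgroup.card_dvd_of_le h1
    have h3 : Nat.card (alternatingGroup (Fin 4)) = 12 := by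
      have := two_mul_nat_card_alternatingGroup (α := Fin 4)
      rw [Nat.card_perm] at this
      have h4 : (Nat.card (Fin 4)).factorial = 24 := by rw [Nat.card_eq_fintype_card, Fintype.card_fin]; rfl
      omega
    rwa [h3] at h2
  have hQ8 : Nat.card Q = 8 := by
    rw [Nat.card_congr e.toEquiv, Nat.card_eq_fintype_card, QuaternionGroup.card]
  -- the image of Q has order at least four
  have hQC : Nat.card (g.domRestrict Q).ker ≤ 2 := by
    have h1 : ∀ x : (g.domRestrict Q).ker, e (x : Q) = 1 ∨ e (x : Q) = QuaternionGroup.a 2 := by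
      intro x
      apply q8_center
      intro y
      have h2 : g ((x : Q) : H) = 1 := x.2
      have h3 : ((x : Q) : H) ∈ Subgroup.centralizer (Q : Set H) := by
        rw [← hg]; exact h2
      have h4 := Subgroup.mem_centralizer_iff.1 h3 (e.symm y) (e.symm y).2
      have h5 : (e.symm y) * (x : Q) = (x : Q) * e.symm y := Subtype.ext h4
      have h6 := congrArg e h5
      rw [map_mul, map_mul, e.apply_symm_apply] at h6
      exact h6.symm
    have h2 : Nat.card (g.domRestrict Q).ker ≤ Nat.card Bool := by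
      apply Nat.card_le_card_of_injective (fun x : (g.domRestrict Q).ker => decide (e (x : Q) = 1))
      intro x y hxy
      apply Subtype.ext
      apply e.injective
      have hxy' : decide (e (x : Q) = 1) = decide (e (y : Q) = 1) := hxy
      rw [decide_eq_decide] at hxy'
      rcases h1 x with hx | hx
      · rw [hx, hxy'.1 hx]
      · rcases h1 y with hy | hy
        · rw [hxy'.2 hy, hy]
        · rw [hx, hy]
    simpa using h2
  have h4r : 4 ∣ Nat.card g.range := by
    have h1 : Nat.card (g.domRestrict Q).ker * Nat.card (g.domRestrict Q).range = 8 := by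
      rw [← hQ8, ← (g.domRestrict Q).ker.card_mul_index, Subgroup.index_ker]
    have h2 : Nat.card (g.domRestrict Q).range ∣ Nat.card g.range := by
      apply Subgroup.card_dvd_of_le
      rintro _ ⟨x, rfl⟩
      exact ⟨x, rfl⟩
    have h3 : 0 < Nat.card (g.domRestrict Q).ker := Nat.card_pos
    obtain ⟨a, ha⟩ : ∃ a, a = Nat.card (g.domRestrict Q).ker := ⟨_, rfl⟩
    obtain ⟨b, hb⟩ : ∃ b, b = Nat.card (g.domRestrict Q).range := ⟨_, rfl⟩
    rw [← ha] at h1 hQC h3
    rw [← hb] at h1 h2
    have h5 : a = 1 ∨ a = 2 := by omega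
    rcases h5 with rfl | rfl
    · have : b = 8 := by omega
      rw [this] at h2
      exact Dvd.dvd.trans (by norm_num) h2
    · have : b = 4 := by omega
      rw [this] at h2
      exact h2
  have hne4 : Nat.card g.range ≠ 4 := by
    intro h4
    apply hno
    have h5 : Nat.card g.range = 2 ^ 2 := by rw [h4]; norm_num
    have : Fact (Nat.Prime 2) := ⟨Nat.prime_two⟩
    have hcomm : ∀ a b : g.range, a * b = b * a := by
      have := IsPGroup.isMulCommutative_of_card_eq_prime_sq h5
      exact fun a b => mul_comm' a b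
    obtain ⟨N, hN, hi⟩ := H74.Semi.index_two_of_comm (G := g.range) (by rw [h4]; norm_num) hcomm
    refine ⟨N.comap g.rangeRestrict, inferInstance, ?_⟩
    rw [Subgroup.index_comap_of_surjective _ g.rangeRestrict_surjective]
    exact hi
  have hr : Nat.card g.range = 12 := by
    exact twelve_of hr12 h4r hne4
  have := g.ker.card_mul_index
  rw [Subgroup.index_ker, hr, hg] at this
  omega

theorem main [Finite V] [Nontrivial V] (H : Subgroup (V ≃ₗ[ZMod p] V)) (hsol : Group.IsSolvable H)
    (htr : ∀ v w : V, v ≠ 0 → w ≠ 0 → ∃ h : H, (h : V ≃ₗ[ZMod p] V) v = w)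
    (hfree : ∀ (h : H) (v : V), v ≠ 0 → (h : V ≃ₗ[ZMod p] V) v = v → h = 1) :
    ((∃ (F : Type) (_ : Field F) (_ : Fintype F) (e : V ≃+ F),
        ∀ g : H, ∃ (a : F) (σ : F ≃+* F), ∀ v : V, e ((g : V ≃ₗ[ZMod p] V) v) = a * σ (e v)) ∨
      Nat.card V ∈ ({25, 49, 121, 529} : Set ℕ)) ∧
    (p ≠ 2 → (∃ N : Subgroup H, N.Normal ∧ N.index = 2) ∨
      (Nat.card V = 25 ∧ Nonempty (H ≃* Matrix.SpecialLinearGroup (Fin 2) (ZMod 3))) ∨
      (Nat.card V = 121 ∧ Nonempty (H ≃* Matrix.SpecialLinearGroup (Fin 2) (ZMod 3) × Multiplicative (ZMod 5)))) := by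
  classical
  have hp : p.Prime := Fact.out
  have : Finite (V ≃ₗ[ZMod p] V) :=
    Finite.of_injective (fun e : V ≃ₗ[ZMod p] V => (e : V → V)) DFunLike.coe_injective
  have hcardH := H15.Q8Lin.card_H H htr hfree
  by_cases hI : ∀ A : Subgroup H, A.Normal → IsCyclic A → ∃ W : Submodule (ZMod p) V, W ≠ ⊥ ∧ W ≠ ⊤ ∧
      ∀ a ∈ A, ∀ v ∈ W, ((a : H) : V ≃ₗ[ZMod p] V) v ∈ W
  · have hreg : ∀ v w : V, v ≠ 0 → w ≠ 0 → ∃! h : H, (h : V ≃ₗ[ZMod p] V) v = w := by
      intro v w hv hw
      obtain ⟨h, hh⟩ := htr v w hv hw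
      refine ⟨h, hh, fun k hk => ?_⟩
      have h1 : ((h⁻¹ * k : H) : V ≃ₗ[ZMod p] V) v = v := by
        change ((h⁻¹ : H) : V ≃ₗ[ZMod p] V) ((k : V ≃ₗ[ZMod p] V) v) = v
        rw [show (k : V ≃ₗ[ZMod p] V) v = w from hk, ← hh]
        change ((h⁻¹ * h : H) : V ≃ₗ[ZMod p] V) v = v
        rw [inv_mul_cancel]; rfl
      exact (inv_mul_eq_one.1 (hfree _ v hv h1)).symm
    obtain ⟨A, ⟨hAn, hAc⟩, hAmax⟩ := Set.exists_max_image
      {B : Subgroup H | B.Normal ∧ IsMulCommutative B} (fun B => Nat.card B) (Set.toFinite _)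
      ⟨⊥, inferInstance, inferInstance⟩
    have hAmax' : ∀ B : Subgroup H, B.Normal → IsMulCommutative B → A ≤ B → B = A := by
      intro B hB hBc hAB
      exact (Subgroup.eq_of_le_of_card_ge hAB (hAmax B ⟨hB, hBc⟩)).symm
    obtain ⟨hlt, -⟩ := Cfsg.Agent.S0685.result H hreg hI A hAn hAc hAmax'
    obtain ⟨Q, hQn, ⟨e⟩⟩ := H15.Q8Norm.exists_Q8 (fun r hr P hP =>
      H15.LinFpf.cyc_or_quat (H15.LinFpf.lin H) (H15.LinFpf.lin_fpf hfree) r P hP) A hAn hAc hAmax' hlt.ne
    obtain ⟨hp2, hV, hC⟩ := H15.Q8Lin.of_equiv H htr hfree Q hQn e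
    have h3 := H15.Q8Lin.p_ne_three H htr hfree hI Q hQn e
    have hcases := H15.Q8Lin.p_cases H htr hfree Q hQn e
    refine ⟨Or.inr ?_, fun _ => ?_⟩
    · rcases hcases with h | h | h | h | h
      · exact absurd h h3
      · rw [hV, h]; norm_num
      · rw [hV, h]; norm_num
      · rw [hV, h]; norm_num
      · rw [hV, h]; norm_num
    · by_cases hno : ∃ N : Subgroup H, N.Normal ∧ N.index = 2
      · exact Or.inl hno
      right
      have h12 := card_centralizer Q e hno
      rw [hV, h12] at hcardH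
      obtain ⟨c, hc⟩ : ∃ c, c = Nat.card (Subgroup.centralizer (Q : Set H)) := ⟨_, rfl⟩
      rw [← hc] at hcardH h12 hC
      rcases hcases with h | h | h | h | h
      · exact absurd h h3
      · left
        refine ⟨by rw [hV, h]; norm_num, ?_⟩
        apply H74.SL23Rec.sl23_of_card _ Q e hno
        rw [h] at hcardH
        rw [h12]; omega
      · exfalso
        rw [h] at hcardH hC
        have h4 : c = 4 := by omega
        rw [h4] at hC
        norm_num at hC
      · right
        refine ⟨by rw [hV, h]; norm_num, ?_⟩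
        rw [h] at hcardH
        apply H74.SL23Rec.sl23_prod _ Q e _ hno
        · rw [h12]; omega
        · rw [← hc]; omega
      · exfalso
        rw [h] at hcardH hC
        have h44 : c = 44 := by omega
        rw [h44] at hC
        norm_num at hC
  · push Not at hI
    obtain ⟨A, hAn, hAc, hA⟩ := hI
    obtain ⟨F, iF, iFf, e, s, hker, hcomm, hs⟩ := H74.Semi.semilinear H htr A
      (fun a ha b hb => by
        have hAc' : IsMulCommutative A := inferInstance
        have := hAc'.1.comm ⟨a, ha⟩ ⟨b, hb⟩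
        exact congrArg Subtype.val this)
      (fun W hW => by
        by_contra hcon
        push Not at hcon
        obtain ⟨a, ha, v, hv, hav⟩ := hA W hcon.1 hcon.2
        exact hav (hW a ha v hv))
    refine ⟨Or.inl ⟨F, iF, iFf, e, fun g => ?_⟩, fun hp2 => Or.inl ?_⟩
    · obtain ⟨c, hc⟩ := hs g
      exact ⟨c, s g, hc⟩
    · apply index_two_semi H hfree _ s hcomm
      have h1 : Nat.card V = p ^ Module.finrank (ZMod p) V := by
        rw [Module.natCard_eq_pow_finrank (K := ZMod p), Nat.card_zmod]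
      have h2 : Odd (Nat.card V) := by
        rw [h1]
        exact (hp.odd_of_ne_two hp2).pow
      obtain ⟨k, hk⟩ := h2
      exact ⟨k, by omega⟩

end H74.SolvReg
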