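import Mathlib
import Cfsg.Agent.Lib.H74.SylNum

set_option autoImplicit false
set_option linter.unusedSectionVars false

/-! Numbers of Sylow subgroups (M. Hall), continued. -/

namespace H74.SylNum

open Subgroup H1.Coprime2
open scoped Pointwise

variable {G : Type*} [Group G] [Finite G]

/-- intersection with a normal subgroup is Sylow -/
theorem inf_sylow {p : ℕ} [hp : Fact p.Prime] (N : Subgroup G) [hN : N.Normal] (P : Sylow p G) :
    ∃ R : Sylow p N, (R : Subgroup N) = ((P : Subgroup G) ⊓ N).subgroupOf N := by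
  have h1 : IsPGroup p (((P : Subgroup G) ⊓ N).subgroupOf N) := by
    have h2 : IsPGroup p ((P : Subgroup G) ⊓ N : Subgroup G) := P.2.to_le inf_le_left
    exact h2.of_equiv (Subgroup.subgroupOfEquivOfLe inf_le_right).symm
  have h2 : ¬ p ∣ (((P : Subgroup G) ⊓ N).subgroupOf N).index := by
    have h3 : (((P : Subgroup G) ⊓ N).subgroupOf N).index = (P : Subgroup G).relIndex N := by
      change ((P : Subgroup G) ⊓ N).relIndex N = _
      rw [Subgroup.inf_relIndex_right]
    rw [h3, ← relIndex_sup' (P : Subgroup G) N]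
    intro h4
    apply P.not_dvd_index
    have h5 : (P : Subgroup G).relIndex ((P : Subgroup G) ⊔ N) ∣ (P : Subgroup G).index :=
      ⟨_, (Subgroup.relIndex_mul_index le_sup_left).symm⟩
    exact h4.trans h5
  exact ⟨h1.toSylow h2, rfl⟩

/-- second step -/
theorem card_step_two {p : ℕ} [hp : Fact p.Prime] (N : Subgroup G) [hN : N.Normal] (P : Sylow p G) :
    (normalizer (P : Set G)).relIndex N = Nat.card (Sylow p N) *
      (normalizer (P : Set G)).relIndex (N ⊓ normalizer (((P : Subgroup G) ⊓ N : Subgroup G) : Set G)) := by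
  obtain ⟨R, hR⟩ := inf_sylow N P
  set D := (P : Subgroup G) ⊓ N with hD
  have h1 : Nat.card (Sylow p N) = (normalizer (D : Set G)).relIndex N := by
    rw [R.card_eq_index_normalizer]
    have h2 : normalizer ((R : Subgroup N) : Set N) = (normalizer (D : Set G)).subgroupOf N := by
      rw [hR]
      exact (subgroupOf_normalizer_eq inf_le_right).symm
    change (normalizer ((R : Subgroup N) : Set N)).index = _
    rw [h2]
    rfl
  have hle : N ⊓ normalizer (P : Set G) ≤ N ⊓ normalizer (D : Set G) := by
    refine le_inf inf_le_left ?_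
    rintro x ⟨hxN, hxP⟩
    have hx1 : MulAut.conj x • (P : Subgroup G) = P := H1.SZ.conj_smul_eq_of_mem_normalizer hxP
    have hx2 : MulAut.conj x • D = D := by
      rw [hD, Subgroup.smul_inf, hx1, Subgroup.Normal.conj_smul_eq_self]
    rw [mem_normalizer_iff]
    intro y
    have h7 : y ∈ D ↔ MulAut.conj x • y ∈ MulAut.conj x • D := (Subgroup.smul_mem_pointwise_smul_iff).symm
    rw [hx2] at h7
    exact h7
  have h2 := Subgroup.relIndex_mul_relIndex (N ⊓ normalizer (P : Set G)) (N ⊓ normalizer (D : Set G)) N hle inf_le_left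
  have h3 : (N ⊓ normalizer (P : Set G)).relIndex N = (normalizer (P : Set G)).relIndex N :=
    Subgroup.inf_relIndex_left N _
  have h4 : (N ⊓ normalizer (D : Set G)).relIndex N = (normalizer (D : Set G)).relIndex N :=
    Subgroup.inf_relIndex_left N _
  have h5 : (N ⊓ normalizer (P : Set G)).relIndex (N ⊓ normalizer (D : Set G)) =
      (normalizer (P : Set G)).relIndex (N ⊓ normalizer (D : Set G)) := by
    rw [← Subgroup.inf_relIndex_right (normalizer (P : Set G)), ← Subgroup.inf_relIndex_right (N ⊓ normalizer (P : Set G))]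
    congr 1
    rw [inf_assoc]
    have h6 : normalizer (P : Set G) ⊓ (N ⊓ normalizer (D : Set G)) ≤ N := inf_le_right.trans inf_le_left
    exact inf_eq_right.2 h6
  rw [h3, h4, h5, ← h1] at h2
  rw [← h2, mul_comm]

/-- third step: the last factor -/
theorem card_step_three {p : ℕ} [hp : Fact p.Prime] (N : Subgroup G) [hN : N.Normal] (P : Sylow p G) (q : ℕ)
    (hq : q.Prime) :
    q ^ ((normalizer (P : Set G)).relIndex
      (N ⊓ normalizer (((P : Subgroup G) ⊓ N : Subgroup G) : Set G))).factorization q % p = 1 := by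
  classical
  set D := (P : Subgroup G) ⊓ N with hD
  set M := normalizer (D : Set G) with hM
  have hDM : D ≤ M := le_normalizer
  have hPM : (P : Subgroup G) ≤ M := by
    intro x hx
    rw [hM, mem_normalizer_iff]
    intro y
    constructor
    · rintro ⟨h1, h2⟩
      exact ⟨(P : Subgroup G).mul_mem ((P : Subgroup G).mul_mem hx h1) ((P : Subgroup G).inv_mem hx), hN.conj_mem _ h2 x⟩
    · rintro ⟨h1, h2⟩
      refine ⟨?_, ?_⟩
      · have h3 : y = x⁻¹ * (x * y * x⁻¹) * x := by group
        rw [h3]
        exact (P : Subgroup G).mul_mem ((P : Subgroup G).mul_mem ((P : Subgroup G).inv_mem hx) h1) hx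
      · have := hN.conj_mem _ h2 x⁻¹
        have h3 : x⁻¹ * (x * y * x⁻¹) * x⁻¹⁻¹ = y := by group
        rwa [h3] at this
  have hDn : (D.subgroupOf M).Normal := Subgroup.normal_in_normalizer
  let f := QuotientGroup.mk' (D.subgroupOf M)
  have hf : Function.Surjective f := QuotientGroup.mk'_surjective _
  set A := ((P : Subgroup G).subgroupOf M).map f with hA
  set K := (N.subgroupOf M).map f with hK
  have hAp : IsPGroup p A := by
    have h1 : IsPGroup p ((P : Subgroup G).subgroupOf M) := P.2.of_equiv (Subgroup.subgroupOfEquivOfLe hPM).symm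
    exact h1.map f
  have hNM : (N.subgroupOf M).Normal := inferInstance
  have hKn : K.Normal := hNM.map f hf
  have hAK : A ≤ normalizer (K : Set (M ⧸ D.subgroupOf M)) := by
    rw [Subgroup.normalizer_eq_top]
    exact le_top
  have hcardK : ¬ p ∣ Nat.card K := by
    have h1 : Nat.card K = (D.subgroupOf M).relIndex (N.subgroupOf M) := by
      rw [hK, ← Subgroup.relIndex_ker, QuotientGroup.ker_mk']
    have h2 : (D.subgroupOf M).relIndex (N.subgroupOf M) ∣ (P : Subgroup G).relIndex N := by
      have h3 : (D.subgroupOf M).relIndex (N.subgroupOf M) = D.relIndex (N ⊓ M) := by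
        have h4 : (N.subgroupOf M) = (N ⊓ M).subgroupOf M := (Subgroup.inf_subgroupOf_right N M).symm
        rw [h4]
        exact Subgroup.relIndex_subgroupOf inf_le_right
      rw [h3]
      have h5 := Subgroup.relIndex_mul_relIndex D (N ⊓ M) N (le_inf inf_le_right hDM) inf_le_left
      have h6 : D.relIndex N = (P : Subgroup G).relIndex N := Subgroup.inf_relIndex_right _ _
      rw [h6] at h5
      exact ⟨_, h5.symm⟩
    rw [h1]
    intro h
    have h3 := h.trans h2
    rw [← relIndex_sup' (P : Subgroup G) N] at h3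
    apply P.not_dvd_index
    have h5 : (P : Subgroup G).relIndex ((P : Subgroup G) ⊔ N) ∣ (P : Subgroup G).index :=
      ⟨_, (Subgroup.relIndex_mul_index le_sup_left).symm⟩
    exact h3.trans h5
  have hmain := coprime_index A K hAp hAK hcardK q hq
  have hidx : (K ⊓ centralizer (A : Set (M ⧸ D.subgroupOf M))).relIndex K = (normalizer (P : Set G)).relIndex (N ⊓ M) := by
    rw [Subgroup.inf_relIndex_left]
    have h1 : (centralizer (A : Set (M ⧸ D.subgroupOf M))).relIndex K =
        ((centralizer (A : Set (M ⧸ D.subgroupOf M))).comap f).relIndex (N.subgroupOf M) := by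
      rw [hK, Subgroup.relIndex_comap]
    rw [h1, ← Subgroup.inf_relIndex_right]
    have h2 : (centralizer (A : Set (M ⧸ D.subgroupOf M))).comap f ⊓ N.subgroupOf M =
        (normalizer (P : Set G)).subgroupOf M ⊓ N.subgroupOf M := by
      ext x
      rw [mem_inf, mem_inf, mem_comap, mem_subgroupOf, mem_subgroupOf]
      constructor
      · rintro ⟨hx, hxN⟩
        refine ⟨?_, hxN⟩
        have hle : MulAut.conj (x : G) • (P : Subgroup G) ≤ P := by
          intro z hz
          rw [Subgroup.mem_pointwise_smul_iff_inv_smul_mem] at hz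
          obtain ⟨y, hy, rfl⟩ : ∃ y ∈ (P : Subgroup G), z = x * y * (x : G)⁻¹ := by
            refine ⟨_, hz, ?_⟩
            rw [← map_inv, MulAut.smul_def, MulAut.conj_apply]
            group
          have h3 := mem_centralizer_iff.1 hx (f ⟨y, hPM hy⟩) ⟨⟨y, hPM hy⟩, hy, rfl⟩
          rw [← map_mul, ← map_mul] at h3
          have h4 : (⟨y, hPM hy⟩ * x : M)⁻¹ * (x * ⟨y, hPM hy⟩) ∈ D.subgroupOf M := QuotientGroup.eq.1 h3
          rw [mem_subgroupOf] at h4
          have h5 : ((⟨y, hPM hy⟩ * x : M)⁻¹ * (x * ⟨y, hPM hy⟩) : M) = ((y * x)⁻¹ * (x * y) : G) := rfl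
          rw [h5] at h4
          have h6 : (x : G) * ((y * x)⁻¹ * (x * y)) * (x : G)⁻¹ ∈ D := (mem_normalizer_iff.1 x.2 _).1 h4
          have h7 : (x : G) * y * (x : G)⁻¹ = y * ((x : G) * ((y * x)⁻¹ * (x * y)) * (x : G)⁻¹) := by group
          rw [h7]
          exact mul_mem hy h6.1
        have heq : MulAut.conj (x : G) • (P : Subgroup G) = P :=
          Subgroup.eq_of_le_of_card_ge hle (by rw [H1.SZ.card_conj_smul])
        have hgoal : (x : G) ∈ normalizer ((P : Subgroup G) : Set G) := by
          rw [mem_normalizer_iff]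
          intro y
          have h7 : y ∈ (P : Subgroup G) ↔ MulAut.conj (x : G) • y ∈ MulAut.conj (x : G) • (P : Subgroup G) :=
            (Subgroup.smul_mem_pointwise_smul_iff).symm
          rw [heq] at h7
          exact h7
        exact hgoal
      · rintro ⟨hx, hxN⟩
        refine ⟨?_, hxN⟩
        refine mem_centralizer_iff.2 ?_
        rintro _ ⟨y, hy, rfl⟩
        rw [← map_mul, ← map_mul]
        apply QuotientGroup.eq.2
        rw [mem_subgroupOf]
        change ((y : G) * x)⁻¹ * (x * y) ∈ D
        have hyP : (y : G) ∈ (P : Subgroup G) := hy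
        have hx' : (x : G) ∈ normalizer ((P : Subgroup G) : Set G) := hx
        have h3 : (x : G)⁻¹ * (y : G)⁻¹ * x ∈ (P : Subgroup G) := by
          have := (mem_normalizer_iff.1 (inv_mem hx') (y : G)⁻¹).1 (inv_mem hyP)
          rwa [inv_inv] at this
        refine ⟨?_, ?_⟩
        · have h4 : ((y : G) * x)⁻¹ * (x * y) = ((x : G)⁻¹ * (y : G)⁻¹ * x) * y := by group
          rw [h4]
          exact mul_mem h3 hyP
        · have h4 : ((y : G) * x)⁻¹ * (x * y) = (x : G)⁻¹ * ((y : G)⁻¹ * x * (y : G)⁻¹⁻¹) := by group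
          rw [h4]
          exact N.mul_mem (N.inv_mem hxN) (hN.conj_mem _ hxN _)
    rw [h2, Subgroup.inf_relIndex_right]
    have h4 : (N.subgroupOf M) = (N ⊓ M).subgroupOf M := (Subgroup.inf_subgroupOf_right N M).symm
    rw [h4]
    exact Subgroup.relIndex_subgroupOf inf_le_right
  rwa [hidx] at hmain

end H74.SylNum
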