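import Mathlib

set_option autoImplicit false
open scoped Pointwise

/-! Counting Sylow subgroups of normal subgroups of index prime to `p` and of quotients. -/

namespace H74.SylowCount

open Subgroup

variable {G : Type*} [Group G] [Finite G] {p : ℕ} [Fact p.Prime]

/-- a Sylow `p`-subgroup lies in every normal subgroup of index prime to `p` -/
theorem sylow_le_of_not_dvd_index (N : Subgroup G) [N.Normal] (hN : ¬ p ∣ N.index) (P : Sylow p G) :
    (P : Subgroup G) ≤ N := by
  rw [← relIndex_eq_one]
  have h1 : N.relIndex (P : Subgroup G) ∣ N.index := relIndex_dvd_index_of_normal N P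
  have h2 : N.relIndex (P : Subgroup G) ∣ Nat.card P := relIndex_dvd_card N P
  obtain ⟨k, hk⟩ := (IsPGroup.iff_card).mp P.isPGroup'
  rw [hk] at h2
  obtain ⟨l, -, hl⟩ := (Nat.dvd_prime_pow Fact.out).mp h2
  rcases Nat.eq_zero_or_pos l with rfl | hlpos
  · rw [hl, pow_zero]
  · rw [hl] at h1
    exact absurd ((dvd_pow_self p hlpos.ne').trans h1) hN

theorem card_sylow_of_not_dvd_index (N : Subgroup G) [N.Normal] (hN : ¬ p ∣ N.index) :
    Nat.card (Sylow p N) = Nat.card (Sylow p G) := by
  symm
  refine Nat.card_eq_of_bijective (fun P : Sylow p G => P.subtype (sylow_le_of_not_dvd_index N hN P)) ⟨?_, ?_⟩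
  · intro P Q h
    exact Sylow.subtype_injective h
  · intro R
    have hR : IsPGroup p ((R : Subgroup N).map N.subtype) := R.isPGroup'.map _
    obtain ⟨P, hP⟩ := hR.exists_le_sylow
    refine ⟨P, ?_⟩
    have h1 : (R : Subgroup N) ≤ P.subtype (sylow_le_of_not_dvd_index N hN P) := by
      intro x hx
      rw [Sylow.coe_subtype, mem_subgroupOf]
      exact hP (mem_map_of_mem _ hx)
    apply Sylow.ext
    exact R.is_maximal' (P.subtype _).isPGroup' h1

theorem card_sylow_quotient (K : Subgroup G) [K.Normal] (hK : ∀ P : Sylow p G, K ≤ normalizer (P : Set G)) :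
    Nat.card (Sylow p (G ⧸ K)) = Nat.card (Sylow p G) := by
  symm
  refine Nat.card_eq_of_bijective (Sylow.mapSurjective (QuotientGroup.mk'_surjective K)) ⟨?_, Sylow.mapSurjective_surjective _ _⟩
  intro P Q h
  have h1 : (P : Subgroup G).map (QuotientGroup.mk' K) = (Q : Subgroup G).map (QuotientGroup.mk' K) := by
    have := congrArg (fun R : Sylow p (G ⧸ K) => (R : Subgroup (G ⧸ K))) h
    simpa using this
  have h2 : (Q : Subgroup G) ≤ normalizer (P : Set G) := by
    have h3 : (Q : Subgroup G) ≤ ((P : Subgroup G).map (QuotientGroup.mk' K)).comap (QuotientGroup.mk' K) := by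
      rw [h1]
      exact le_comap_map _ _
    rw [comap_map_eq, QuotientGroup.ker_mk'] at h3
    exact h3.trans (sup_le le_normalizer (hK P))
  have h4 := IsPGroup.inf_normalizer_sylow Q.isPGroup' P
  have h5 : (Q : Subgroup G) ≤ P := by
    have h6 : (Q : Subgroup G) ⊓ normalizer (P : Set G) = Q := inf_eq_left.mpr h2
    rw [h4] at h6
    exact inf_eq_left.mp h6
  apply Sylow.ext
  exact Q.is_maximal' P.isPGroup' h5

end H74.SylowCount
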