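import Cfsg.Agent.Lib.H74.FC
import Cfsg.Agent.Lib.H1.Cores
set_option autoImplicit false
open Cfsg

namespace H74.ZPres
open H74.FrobC H74.FC

/-- the metacyclic relations -/
def rels (n m r : ℕ) : Set (FreeGroup (Fin 2)) :=
  {FreeGroup.of (0 : Fin 2) ^ n, FreeGroup.of (1 : Fin 2) ^ m,
            (FreeGroup.of (0 : Fin 2))⁻¹ * FreeGroup.of 1 * FreeGroup.of 0 * (FreeGroup.of (1 : Fin 2) ^ r)⁻¹}

theorem conj_pow_eq {P : Type*} [Group P] {X Y : P} {r : ℕ} (h : X⁻¹ * Y * X = Y ^ r) (b : ℕ) : X⁻¹ * Y ^ b * X = Y ^ (r * b) := by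
  rw [pow_mul, ← h]
  induction b with
  | zero => simp
  | succ b ih => rw [pow_succ, pow_succ, ← ih]; group

theorem pres_iso {N : Type*} [Group N] [Finite N] (x y : N) (n m r : ℕ) (hn : x ^ n = 1) (hm : y ^ m = 1)
    (hrel : x⁻¹ * y * x = y ^ r) (hgen : Subgroup.closure {x, y} = ⊤) (hcard : Nat.card N = n * m) (hn0 : 0 < n) (hm0 : 0 < m) :
    Nonempty (N ≃* PresentedGroup (rels n m r)) := by
  let g : Fin 2 → N := ![x, y]
  have hg : ∀ w ∈ rels n m r, FreeGroup.lift g w = 1 := by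
    rintro w (rfl | rfl | rfl)
    · rw [map_pow, FreeGroup.lift_apply_of]; exact hn
    · rw [map_pow, FreeGroup.lift_apply_of]; exact hm
    · rw [map_mul, map_mul, map_mul, map_inv, map_inv, map_pow, FreeGroup.lift_apply_of, FreeGroup.lift_apply_of]
      change x⁻¹ * y * x * (y ^ r)⁻¹ = 1
      rw [hrel, mul_inv_cancel]
  let f : PresentedGroup (rels n m r) →* N := PresentedGroup.toGroup hg
  let X : PresentedGroup (rels n m r) := PresentedGroup.of 0
  let Y : PresentedGroup (rels n m r) := PresentedGroup.of 1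
  have hfX : f X = x := PresentedGroup.toGroup.of hg
  have hfY : f Y = y := PresentedGroup.toGroup.of hg
  have hXn : X ^ n = 1 := by
    have := PresentedGroup.one_of_mem (rels := rels n m r) (x := FreeGroup.of 0 ^ n) (Or.inl rfl)
    rw [map_pow] at this
    exact this
  have hYm : Y ^ m = 1 := by
    have := PresentedGroup.one_of_mem (rels := rels n m r) (x := FreeGroup.of 1 ^ m) (Or.inr (Or.inl rfl))
    rw [map_pow] at this
    exact this
  have hXY : X⁻¹ * Y * X = Y ^ r := by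
    have := PresentedGroup.one_of_mem (rels := rels n m r)
      (x := (FreeGroup.of (0 : Fin 2))⁻¹ * FreeGroup.of 1 * FreeGroup.of 0 * (FreeGroup.of (1 : Fin 2) ^ r)⁻¹) (Or.inr (Or.inr rfl))
    rw [map_mul, map_mul, map_mul, map_inv, map_inv, map_pow] at this
    exact mul_inv_eq_one.mp this
  have hfs : Function.Surjective f := by
    rw [← MonoidHom.range_eq_top, eq_top_iff, ← hgen, Subgroup.closure_le]
    rintro z (rfl | rfl)
    · exact ⟨X, hfX⟩
    · exact ⟨Y, hfY⟩
  have hform : ∀ z : PresentedGroup (rels n m r), ∃ a b : ℕ, z = X ^ a * Y ^ b := by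
    have hSX : ∀ z, (∃ a b : ℕ, z = X ^ a * Y ^ b) → ∃ a b : ℕ, z * X = X ^ a * Y ^ b := by
      rintro z ⟨a, b, rfl⟩
      refine ⟨a + 1, r * b, ?_⟩
      rw [← conj_pow_eq hXY b]; group
    have hSY : ∀ z, (∃ a b : ℕ, z = X ^ a * Y ^ b) → ∃ a b : ℕ, z * Y = X ^ a * Y ^ b := by
      rintro z ⟨a, b, rfl⟩
      exact ⟨a, b + 1, by rw [pow_succ, mul_assoc]⟩
    have hSXk : ∀ (k : ℕ) z, (∃ a b : ℕ, z = X ^ a * Y ^ b) → ∃ a b : ℕ, z * X ^ k = X ^ a * Y ^ b := by
      intro k
      induction k with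
      | zero => intro z hz; rw [pow_zero, mul_one]; exact hz
      | succ k ih => intro z hz; rw [pow_succ, ← mul_assoc]; exact hSX _ (ih z hz)
    have hSYk : ∀ (k : ℕ) z, (∃ a b : ℕ, z = X ^ a * Y ^ b) → ∃ a b : ℕ, z * Y ^ k = X ^ a * Y ^ b := by
      intro k
      induction k with
      | zero => intro z hz; rw [pow_zero, mul_one]; exact hz
      | succ k ih => intro z hz; rw [pow_succ, ← mul_assoc]; exact hSY _ (ih z hz)
    have hXinv : X⁻¹ = X ^ (n - 1) := by
      rw [inv_eq_iff_mul_eq_one, ← pow_succ', Nat.sub_add_cancel hn0, hXn]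
    have hYinv : Y⁻¹ = Y ^ (m - 1) := by
      rw [inv_eq_iff_mul_eq_one, ← pow_succ', Nat.sub_add_cancel hm0, hYm]
    intro z
    have hz : z ∈ Subgroup.closure (Set.range (PresentedGroup.of : Fin 2 → PresentedGroup (rels n m r))) := by
      rw [PresentedGroup.closure_range_of]; exact Subgroup.mem_top _
    induction hz using Subgroup.closure_induction_right with
    | one => exact ⟨0, 0, by simp⟩
    | mul_right w v _ hv ih =>
      obtain ⟨i, rfl⟩ := hv
      fin_cases i
      · exact hSX _ ih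
      · exact hSY _ ih
    | mul_inv_cancel w v _ hv ih =>
      obtain ⟨i, rfl⟩ := hv
      fin_cases i
      · change ∃ a b : ℕ, w * X⁻¹ = X ^ a * Y ^ b
        rw [hXinv]; exact hSXk _ _ ih
      · change ∃ a b : ℕ, w * Y⁻¹ = X ^ a * Y ^ b
        rw [hYinv]; exact hSYk _ _ ih
  let s : Fin n × Fin m → PresentedGroup (rels n m r) := fun p => X ^ (p.1 : ℕ) * Y ^ (p.2 : ℕ)
  have hs : Function.Surjective s := by
    intro z
    obtain ⟨a, b, rfl⟩ := hform z
    refine ⟨(⟨a % n, Nat.mod_lt _ hn0⟩, ⟨b % m, Nat.mod_lt _ hm0⟩), ?_⟩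
    change X ^ (a % n) * Y ^ (b % m) = _
    rw [← pow_eq_pow_mod a hXn, ← pow_eq_pow_mod b hYm]
  have hfin : Finite (PresentedGroup (rels n m r)) := Finite.of_surjective s hs
  have hle : Nat.card (PresentedGroup (rels n m r)) ≤ Nat.card N := by
    have := Nat.card_le_card_of_surjective s hs
    rwa [Nat.card_prod, Nat.card_fin, Nat.card_fin, ← hcard] at this
  have hge : Nat.card N ≤ Nat.card (PresentedGroup (rels n m r)) := Nat.card_le_card_of_surjective f hfs
  have hbij := (Nat.bijective_iff_surjective_and_card f).mpr ⟨hfs, le_antisymm hle hge⟩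
  exact ⟨(MulEquiv.ofBijective f hbij).symm⟩

end H74.ZPres
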