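import Cfsg.Agent.Lib.H74.ZPres
set_option autoImplicit false
open Cfsg

namespace H74.ZPres
open H74.FrobC H74.FC

/-- subgroups of a cyclic normal subgroup are normal -/
theorem normal_of_le_cyclic {N : Type*} [Group N] [Finite N] (Y D : Subgroup N) [hY : Y.Normal] (hc : IsCyclic Y) (hD : D ≤ Y) :
    D.Normal := by
  constructor
  intro d hd g
  have h1 : D.map (MulAut.conj g).toMonoidHom = D := by
    apply H1.FrobSyl.eq_of_card_eq_of_le hc
    · rintro _ ⟨a, ha, rfl⟩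
      exact hY.conj_mem a (hD ha) g
    · exact hD
    · exact Subgroup.card_map_of_injective (MulAut.conj g).injective
  rw [← h1]
  exact ⟨d, hd, rfl⟩

theorem prime_comm {N : Type*} [Group N] [Finite N] (h : IsFC N) {u v : N} {p q : ℕ} (hp : p.Prime) (hq : q.Prime) (hpq : p ≠ q)
    (hu : orderOf u = p) (hv : orderOf v = q) [(Subgroup.zpowers v).Normal] : u * v = v * u := by
  let A := Subgroup.zpowers u ⊔ Subgroup.zpowers v
  have hA1 : Nat.card A ∣ p * q := by
    have := H1.Cores.card_sup_dvd_mul (Subgroup.zpowers u) (Subgroup.zpowers v)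
    rwa [Nat.card_zpowers, Nat.card_zpowers, hu, hv] at this
  have hA2 : p ∣ Nat.card A := by
    have := Subgroup.card_dvd_of_le (le_sup_left : Subgroup.zpowers u ≤ A)
    rwa [Nat.card_zpowers, hu] at this
  have hA3 : q ∣ Nat.card A := by
    have := Subgroup.card_dvd_of_le (le_sup_right : Subgroup.zpowers v ≤ A)
    rwa [Nat.card_zpowers, hv] at this
  have hA4 : Nat.card A = p * q := Nat.dvd_antisymm hA1
    (Nat.Coprime.mul_dvd_of_dvd_of_dvd ((Nat.coprime_primes hp hq).mpr hpq) hA2 hA3)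
  have huA : u ∈ A := Subgroup.mem_sup_left (Subgroup.mem_zpowers u)
  have hvA : v ∈ A := Subgroup.mem_sup_right (Subgroup.mem_zpowers v)
  have hbot : A ≠ ⊥ := by
    intro hA
    rw [hA, Subgroup.card_bot] at hA2
    exact hp.one_lt.ne' (Nat.dvd_one.mp hA2)
  obtain ⟨V, _, _, _, _, hfpf⟩ := exists_module (isFC_subgroup h A hbot)
  have hcyc : IsCyclic A := H1.Cyc.isCyclic_of_fpf hfpf (Or.inr ⟨p, q, hp, hq, hA4⟩)
  let _ := hcyc.commGroup
  exact congrArg Subtype.val (mul_comm (⟨u, huA⟩ : A) ⟨v, hvA⟩)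

/-- an automorphism of prime order of a cyclic group that is trivial on the elements of prime order is trivial -/
theorem cong_lemma {s m p : ℕ} (hp : p.Prime) (hpm : p.Coprime m) (h1 : s ^ p ≡ 1 [MOD m]) (h2 : ∀ q : ℕ, q.Prime → q ∣ m → s ≡ 1 [MOD q]) :
    s ≡ 1 [MOD m] := by
  have e1 : (m : ℤ) ∣ (s : ℤ) ^ p - 1 := by
    have := (Int.natCast_modEq_iff.mpr h1).symm.dvd
    simpa using this
  have e2 : (s : ℤ) ^ p - 1 = ((s : ℤ) - 1) * ∑ i ∈ Finset.range p, (s : ℤ) ^ i := by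
    rw [mul_geom_sum]
  have e3 : IsCoprime (m : ℤ) (∑ i ∈ Finset.range p, (s : ℤ) ^ i) := by
    rw [Int.isCoprime_iff_gcd_eq_one]
    by_contra hne
    obtain ⟨q, hq, hqd⟩ := Nat.exists_prime_and_dvd hne
    have hqm : q ∣ m := by
      have : (q : ℤ) ∣ (m : ℤ) := (Int.natCast_dvd_natCast.mpr hqd).trans (Int.gcd_dvd_left _ _)
      exact_mod_cast this
    have hqs : (q : ℤ) ∣ ∑ i ∈ Finset.range p, (s : ℤ) ^ i := (Int.natCast_dvd_natCast.mpr hqd).trans (Int.gcd_dvd_right _ _)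
    have hs1 : (s : ℤ) ≡ 1 [ZMOD q] := by
      have := Int.natCast_modEq_iff.mpr (h2 q hq hqm)
      simpa using this
    have hsum : (∑ i ∈ Finset.range p, (s : ℤ) ^ i) ≡ p [ZMOD q] := by
      have : (p : ℤ) = ∑ i ∈ Finset.range p, (1 : ℤ) ^ i := by simp
      rw [this]
      apply Int.ModEq.sum
      intro i _
      exact hs1.pow i
    have hqp : (q : ℤ) ∣ (p : ℤ) := by
      have h3 := hsum.dvd
      have h4 := dvd_add h3 hqs
      rwa [sub_add_cancel] at h4
    have hqp' : q ∣ p := by exact_mod_cast hqp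
    have : q = p := (Nat.prime_dvd_prime_iff_eq hq hp).mp hqp'
    subst this
    exact hq.one_lt.ne' (Nat.Coprime.eq_one_of_dvd hpm hqm)
  have e4 : (m : ℤ) ∣ (s : ℤ) - 1 := by
    rw [e2] at e1
    exact e3.dvd_of_dvd_mul_right e1
  have e5 : (1 : ℤ) ≡ s [ZMOD m] := Int.modEq_iff_dvd.mpr e4
  have e6 : ((1 : ℕ) : ℤ) ≡ s [ZMOD m] := by simpa using e5
  exact (Int.natCast_modEq_iff.mp e6).symm

theorem dvd_lemma {n d : ℕ} (hn : 0 < n) (hd : d ∣ n) (h : ∀ p : ℕ, p.Prime → p ∣ n → d ∣ n / p) : d ∣ n / ∏ p ∈ n.primeFactors, p := by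
  obtain ⟨t, rfl⟩ := hd
  have hd0 : 0 < d := Nat.pos_of_mul_pos_right hn
  have ht0 : 0 < t := Nat.pos_of_mul_pos_left hn
  have hpt : ∀ p : ℕ, p.Prime → p ∣ d * t → p ∣ t := by
    intro p hp hpd
    obtain ⟨k, hk⟩ := h p hp hpd
    have h1 : d * t = p * (d * k) := by rw [← hk, Nat.mul_div_cancel' hpd]
    have h2 : d * t = d * (p * k) := by rw [h1]; ring
    exact ⟨k, Nat.eq_of_mul_eq_mul_left hd0 h2⟩
  have hprod : (∏ p ∈ (d * t).primeFactors, p) ∣ t := by
    apply Finset.prod_primes_dvd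
    · intro p hp
      exact (Nat.prime_of_mem_primeFactors hp).prime
    · intro p hp
      exact hpt p (Nat.prime_of_mem_primeFactors hp) (Nat.dvd_of_mem_primeFactors hp)
  rw [Nat.mul_div_assoc _ hprod]
  exact Dvd.intro _ rfl

end H74.ZPres
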