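import Cfsg.Agent.Lib.H74.ZPres2
set_option autoImplicit false
open Cfsg

namespace H74.ZPres
open H74.FrobC H74.FC

/-- generators of a Z-group adapted to its derived subgroup -/
theorem zgroup_gens {N : Type*} [Group N] [Finite N] (hz : IsZGroup N) :
    ∃ (x y : N) (r : ℕ), x⁻¹ * y * x = y ^ r ∧ 1 ≤ r ∧ Subgroup.closure {x, y} = ⊤ ∧ Nat.card N = orderOf x * orderOf y ∧
      (Subgroup.zpowers y).Normal ∧ Nat.Coprime (orderOf x) (orderOf y) ∧ Nat.Coprime (r - 1) (orderOf y) := by
  have hcop := hz.coprime_commutator_index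
  obtain ⟨X, hX⟩ := Subgroup.exists_right_complement'_of_coprime hcop
  have hYc : IsCyclic (commutator N) := hz.isCyclic_commutator
  have hXc : IsCyclic X := by
    have h1 : Abelianization N ≃* X := hX.symm.QuotientMulEquiv
    have h2 : IsCyclic (Abelianization N) := inferInstance
    exact isCyclic_of_surjective _ h1.surjective
  obtain ⟨x', hx'⟩ := hXc.exists_generator
  obtain ⟨y', hy'⟩ := hYc.exists_generator
  let x : N := x'
  let y : N := y'
  have hXz : Subgroup.zpowers x = X := by
    apply le_antisymm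
    · rw [Subgroup.zpowers_le]; exact x'.2
    · intro a ha
      obtain ⟨k, hk⟩ := hx' ⟨a, ha⟩
      exact ⟨k, congrArg Subtype.val hk⟩
  have hYz : Subgroup.zpowers y = commutator N := by
    apply le_antisymm
    · rw [Subgroup.zpowers_le]; exact y'.2
    · intro a ha
      obtain ⟨k, hk⟩ := hy' ⟨a, ha⟩
      exact ⟨k, congrArg Subtype.val hk⟩
  have hox : orderOf x = Nat.card X := by rw [← hXz, Nat.card_zpowers]
  have hoy : orderOf y = Nat.card (commutator N) := by rw [← hYz, Nat.card_zpowers]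
  have hXi : (commutator N).index = Nat.card X := hX.symm.index_eq_card
  -- the exponent
  have hmem : x⁻¹ * y * x ∈ Subgroup.zpowers y := by
    rw [hYz]
    have : y ∈ commutator N := y'.2
    have h1 := (inferInstance : (commutator N).Normal).conj_mem y this x⁻¹
    rwa [inv_inv] at h1
  obtain ⟨k, hk⟩ : ∃ k : ℕ, y ^ k = x⁻¹ * y * x := by
    have := (mem_powers_iff_mem_zpowers (x := y) (y := x⁻¹ * y * x)).mpr hmem
    exact this
  let r := k + orderOf y
  have hr : x⁻¹ * y * x = y ^ r := by
    rw [pow_add, pow_orderOf_eq_one, mul_one, hk]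
  have hr1 : 1 ≤ r := by
    have := orderOf_pos y
    omega
  have hgen : Subgroup.closure {x, y} = ⊤ := by
    rw [eq_top_iff, ← hX.sup_eq_top, ← hXz, ← hYz]
    apply sup_le
    · rw [Subgroup.zpowers_le]; exact Subgroup.subset_closure (by simp)
    · rw [Subgroup.zpowers_le]; exact Subgroup.subset_closure (by simp)
  have hcard : Nat.card N = orderOf x * orderOf y := by
    rw [hox, hoy, ← hXi, mul_comm]
    exact (Subgroup.card_mul_index _).symm
  refine ⟨x, y, r, hr, hr1, hgen, hcard, by rw [hYz]; infer_instance, ?_, ?_⟩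
  · rw [hox, hoy, ← hXi]; exact hcop.symm
  · -- `D = ⟨y^(r-1)⟩` contains the derived subgroup
    let D := Subgroup.zpowers (y ^ (r - 1))
    have hDY : D ≤ commutator N := by
      rw [← hYz, Subgroup.zpowers_le]
      exact Subgroup.pow_mem _ (Subgroup.mem_zpowers y) _
    have hDn : D.Normal := normal_of_le_cyclic (commutator N) D hYc hDY
    have hle : commutator N ≤ D := by
      rw [← Subgroup.Normal.quotient_commutative_iff_commutator_le]
      have hc : ∀ a ∈ ({(x : N ⧸ D), (y : N ⧸ D)} : Set (N ⧸ D)), ∀ b ∈ ({(x : N ⧸ D), (y : N ⧸ D)} : Set (N ⧸ D)), a * b = b * a := by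
        have hxy : (y : N ⧸ D) * (x : N ⧸ D) = (x : N ⧸ D) * (y : N ⧸ D) := by
          rw [← QuotientGroup.mk_mul, ← QuotientGroup.mk_mul, eq_comm, QuotientGroup.eq]
          have h1 : (x * y)⁻¹ * (y * x) = y⁻¹ * (x⁻¹ * y * x) := by group
          rw [h1, hr]
          have h2 : y⁻¹ * y ^ r = y ^ (r - 1) := by
            obtain ⟨t, ht⟩ : ∃ t, r = t + 1 := ⟨r - 1, by omega⟩
            rw [ht, pow_succ', inv_mul_cancel_left, Nat.add_sub_cancel]
          rw [h2]
          exact Subgroup.mem_zpowers _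
        rintro a (rfl | rfl) b (rfl | rfl)
        · rfl
        · exact hxy.symm
        · exact hxy
        · rfl
      have hcomm := Subgroup.isMulCommutative_closure hc
      have htop : Subgroup.closure ({(x : N ⧸ D), (y : N ⧸ D)} : Set (N ⧸ D)) = ⊤ := by
        have h1 : (Subgroup.closure {x, y}).map (QuotientGroup.mk' D) = ⊤ := by
          rw [hgen]; exact Subgroup.map_top_of_surjective _ (QuotientGroup.mk'_surjective D)
        rw [MonoidHom.map_closure, Set.image_pair] at h1
        exact h1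
      refine ⟨⟨fun a b => ?_⟩⟩
      have ha : a ∈ Subgroup.closure ({(x : N ⧸ D), (y : N ⧸ D)} : Set (N ⧸ D)) := by rw [htop]; exact Subgroup.mem_top _
      have hb : b ∈ Subgroup.closure ({(x : N ⧸ D), (y : N ⧸ D)} : Set (N ⧸ D)) := by rw [htop]; exact Subgroup.mem_top _
      exact congrArg Subtype.val (hcomm.is_comm.comm ⟨a, ha⟩ ⟨b, hb⟩)
    have hD : D = commutator N := le_antisymm hDY hle
    have h3 : orderOf (y ^ (r - 1)) = orderOf y := by
      rw [← Nat.card_zpowers, ← Nat.card_zpowers y, hYz]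
      exact congrArg (fun t : Subgroup N => Nat.card t) hD
    rw [orderOf_pow] at h3
    have h4 := orderOf_pos y
    have h5 : (orderOf y).gcd (r - 1) = 1 := by
      have h6 := Nat.div_mul_cancel (Nat.gcd_dvd_left (orderOf y) (r - 1))
      rw [h3] at h6
      exact Nat.eq_of_mul_eq_mul_left h4 (by rw [mul_one]; exact h6)
    rw [Nat.coprime_comm]; exact h5

/-- the Zassenhaus condition for the action -/
theorem zass_cond {N : Type*} [Group N] [Finite N] (h : Nontrivial N → IsFC N) (x y : N) (r : ℕ) (hr : x⁻¹ * y * x = y ^ r)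
    (hYn : (Subgroup.zpowers y).Normal) (hcop : Nat.Coprime (orderOf x) (orderOf y)) :
    r ^ (orderOf x / ∏ p ∈ (orderOf x).primeFactors, p) % orderOf y = 1 % orderOf y := by
  have hconj : ∀ k : ℕ, (x ^ k)⁻¹ * y * x ^ k = y ^ (r ^ k) := by
    intro k
    induction k with
    | zero => simp
    | succ k ih =>
      have h1 : (x ^ (k + 1))⁻¹ * y * x ^ (k + 1) = x⁻¹ * ((x ^ k)⁻¹ * y * x ^ k) * x := by
        rw [pow_succ]; group
      rw [h1, ih, conj_pow_eq hr, pow_succ, mul_comm]
  have hiff : ∀ k : ℕ, (x ^ k)⁻¹ * y * x ^ k = y ↔ r ^ k ≡ 1 [MOD orderOf y] := by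
    intro k
    rw [hconj, ← pow_eq_pow_iff_modEq, pow_one]
  -- elements of prime order act trivially
  have hprime : ∀ p : ℕ, p.Prime → p ∣ orderOf x → r ^ (orderOf x / p) ≡ 1 [MOD orderOf y] := by
    intro p hp hpx
    have hx0 := orderOf_pos x
    have hnp : 0 < orderOf x / p := Nat.div_pos (Nat.le_of_dvd hx0 hpx) hp.pos
    have hu : orderOf (x ^ (orderOf x / p)) = p := by
      rw [orderOf_pow_of_dvd hnp.ne' (Nat.div_dvd_of_dvd hpx), Nat.div_div_self hpx hx0.ne']
    have hnt : Nontrivial N := by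
      refine ⟨⟨x ^ (orderOf x / p), 1, ?_⟩⟩
      intro h1
      rw [h1, orderOf_one] at hu
      exact hp.one_lt.ne hu
    have hFC := h hnt
    have hpm : p.Coprime (orderOf y) := Nat.Coprime.coprime_dvd_left hpx hcop
    apply cong_lemma hp hpm
    · rw [← pow_mul, Nat.div_mul_cancel hpx, ← hiff, pow_orderOf_eq_one]
      simp
    · intro q hq hqy
      have hy0 := orderOf_pos y
      have hmq : 0 < orderOf y / q := Nat.div_pos (Nat.le_of_dvd hy0 hqy) hq.pos
      have hv : orderOf (y ^ (orderOf y / q)) = q := by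
        rw [orderOf_pow_of_dvd hmq.ne' (Nat.div_dvd_of_dvd hqy), Nat.div_div_self hqy hy0.ne']
      have hpq : p ≠ q := by
        rintro rfl
        exact hp.one_lt.ne' (Nat.Coprime.eq_one_of_dvd hpm hqy)
      have hvn : (Subgroup.zpowers (y ^ (orderOf y / q))).Normal := by
        apply normal_of_le_cyclic (Subgroup.zpowers y) _ inferInstance
        rw [Subgroup.zpowers_le]
        exact Subgroup.pow_mem _ (Subgroup.mem_zpowers y) _
      have hcomm := prime_comm hFC hp hq hpq hu hv
      have h1 : (x ^ (orderOf x / p))⁻¹ * y ^ (orderOf y / q) * x ^ (orderOf x / p) = y ^ (orderOf y / q) := by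
        rw [mul_assoc, ← hcomm, inv_mul_cancel_left]
      have h2 : (x ^ (orderOf x / p))⁻¹ * y ^ (orderOf y / q) * x ^ (orderOf x / p) = y ^ (r ^ (orderOf x / p) * (orderOf y / q)) :=
        conj_pow_eq (hconj _) _
      rw [h2, pow_eq_pow_iff_modEq] at h1
      have h3 : orderOf y = q * (orderOf y / q) := (Nat.mul_div_cancel' hqy).symm
      have h4 : r ^ (orderOf x / p) * (orderOf y / q) ≡ 1 * (orderOf y / q) [MOD q * (orderOf y / q)] := by
        rw [← h3, one_mul]; exact h1
      exact Nat.ModEq.mul_right_cancel' hmq.ne' h4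
  -- the stabilizer
  let S : AddSubgroup ℤ :=
    { carrier := {k | x ^ k * y = y * x ^ k}
      zero_mem' := by simp
      add_mem' := by
        intro a b ha hb
        change x ^ (a + b) * y = y * x ^ (a + b)
        have ha' : x ^ a * y = y * x ^ a := ha
        have hb' : x ^ b * y = y * x ^ b := hb
        rw [zpow_add, mul_assoc, hb', ← mul_assoc, ha', mul_assoc]
      neg_mem' := by
        intro a ha
        have ha' : x ^ a * y = y * x ^ a := ha
        change x ^ (-a) * y = y * x ^ (-a)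
        rw [zpow_neg, inv_mul_eq_iff_eq_mul, ← mul_assoc, ha', mul_inv_cancel_right] }
  obtain ⟨d, hd⟩ := Int.subgroup_cyclic S
  have hS : ∀ k : ℕ, (k : ℤ) ∈ S ↔ r ^ k ≡ 1 [MOD orderOf y] := by
    intro k
    rw [← hiff]
    change x ^ (k : ℤ) * y = y * x ^ (k : ℤ) ↔ _
    rw [zpow_natCast, mul_assoc, inv_mul_eq_iff_eq_mul, eq_comm]
  have hmemd : ∀ k : ℕ, (k : ℤ) ∈ S ↔ d.natAbs ∣ k := by
    intro k
    rw [hd, ← AddSubgroup.zmultiples_eq_closure, Int.mem_zmultiples_iff, ← Int.natAbs_dvd_natAbs, Int.natAbs_natCast]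
  have h1 : d.natAbs ∣ orderOf x := by
    rw [← hmemd, hS, ← hiff, pow_orderOf_eq_one]; simp
  have h2 := dvd_lemma (orderOf_pos x) h1 (fun p hp hpx => by
    rw [← hmemd, hS]; exact hprime p hp hpx)
  rw [← hmemd, hS] at h2
  exact h2

end H74.ZPres
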